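import Cfsg.Agent.Lib.Geometric.Orth.Eight.Pairs

/-!
The commutator argument for stabilisers of non-degenerate subspaces with small complement.
-/

namespace CfsgLib.Geometric.Orth.Eight

open Matrix QuadraticMap CfsgLib.ClassicalForms CfsgLib.Geometric CfsgLib.Geometric.Orth

variable {ι : Type} [Fintype ι] [DecidableEq ι] {F : Type*} [Field F] [Finite F]
variable {Q : QuadraticForm F (ι → F)} (hQ : Nondeg Q) {W : Submodule F (ι → F)}
  (hW : Cfsg.Geo.IsNondegenerateOn (polar (⇑Q)) W)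
  (h4 : Module.finrank F W + 4 ≤ Fintype.card ι)
  (hex : Nat.card F ≤ 3 → Module.finrank F W = 2 → ∀ x ∈ W, Q x = 0 → x = 0)
  {M : Subgroup (GL ι F)} (hHM : Cfsg.Geo.subspaceStabilizer W ⊓ Cfsg.Geo.omegaGL (⇑Q) ≤ M)
  (hMI : M ≤ Cfsg.isometryGroup F (⇑Q)) (hcon : ¬ Cfsg.Geo.omegaGL (⇑Q) ≤ M)
  (hn5 : 5 ≤ Fintype.card ι)

include hn5 in
omit [DecidableEq ι] hcon in
lemma five_le : 5 ≤ Module.finrank F (ι → F) := by
  rw [Module.finrank_fintype_fun_eq_card]; exact hn5

include hQ hW h4 hex hHM hMI hcon hn5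

/-- A Siegel element of `M` centred at a singular vector of `P` is centred inside `P`. -/
lemma mixed_mem {u y : ι → F} (hu : u ∈ perpW Q W) (hu0 : u ≠ 0) (hQu : Q u = 0)
    (huy : polar Q u y = 0) (hm : sg Q u y hQu huy ∈ M) : y ∈ perpW Q W := by
  obtain ⟨a, ha, p, hp, rfl⟩ := exists_add_eq hW y
  by_cases ha0 : a = 0
  · rw [ha0, zero_add]; exact hp
  have h1 : polar Q u a = 0 := by rw [polar_comm]; exact hu a ha
  have h2 : polar Q u p = 0 := by rwa [polar_add_right, h1, zero_add] at huy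
  have h3 : polar Q u (-p) = 0 := by rw [polar_neg_right, h2, neg_zero]
  have hp' : sg Q u (-p) hQu h3 ∈ M :=
    hHM ⟨mem_subspaceStabilizer_of_mapsTo _ _ fun w hw => by
      rw [ap_sg_fix hQu h3 (hu w hw) (by rw [polar_neg_right, mem_perpW.mp hp w hw, neg_zero])]; exact hw,
      sg_mem hQ hn5 _ _⟩
  have h := mul_mem hm hp'
  rw [sg_mul] at h
  refine absurd (le_of_mixed hQ hW h4 hex hHM hMI hu hu0 hQu ha ha0 h1 ?_) hcon
  convert h using 2
  abel

/-- An element of `M` keeping a singular vector of `P` in `P` keeps its orthogonal there. -/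
lemma perp_maps {g : GL ι F} (hg : g ∈ M) {u : ι → F} (hu : u ∈ perpW Q W) (hu0 : u ≠ 0)
    (hQu : Q u = 0) (hgu : ap g u ∈ perpW Q W) :
    ∀ p ∈ perpW Q W, polar Q u p = 0 → ap g p ∈ perpW Q W := by
  intro p hp hup
  have hm : sg Q u p hQu hup ∈ M := hHM ⟨mem_subspaceStabilizer_of_mapsTo _ _ fun w hw => by
    rw [ap_sg_fix hQu hup (hu w hw) (hp w hw)]; exact hw, sg_mem hQ hn5 _ _⟩
  have h := mul_mem (mul_mem hg hm) (inv_mem hg)
  rw [conj_sg (hMI hg)] at h
  exact mixed_mem hQ hW h4 hex hHM hMI hcon hn5 hgu (ap_ne_zero g hu0) _ _ h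

variable (hT : TwoPairs Q W)
include hT

omit hcon hMI hHM hex h4 in
/-- `P` is the sum of the orthogonals in it of two independent vectors. -/
lemma cover {v w : ι → F} (hv : v ∈ perpW Q W) (hw : w ∈ perpW Q W)
    (hvw : v ∉ Submodule.span F {w}) {C : (ι → F) → Prop}
    (hadd : ∀ x y, C x → C y → C (x + y)) (hsmul : ∀ (c : F) x, C x → C (c • x))
    (h1 : ∀ p ∈ perpW Q W, polar Q v p = 0 → C p) (h2 : ∀ p ∈ perpW Q W, polar Q w p = 0 → C p) :
    ∀ p ∈ perpW Q W, C p := by
  intro p hp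
  obtain ⟨y, hy, hwy, hvy⟩ := exists_sep_perp hQ hW
    ((Submodule.span_singleton_le_iff_mem _ _).2 hw) hv hvw
  have h := hadd _ _
    (h1 (p - polar Q v p • y) ((perpW Q W).sub_mem hp ((perpW Q W).smul_mem _ hy)) (by
      rw [polar_sub_right, polar_smul_right, hvy, smul_eq_mul, mul_one, sub_self]))
    (hsmul (polar Q v p) y (h2 y hy (hwy w (Submodule.mem_span_singleton_self w))))
  rwa [sub_add_cancel] at h

omit hQ hW h4 hex hHM hMI hcon hn5 hT [Finite F] in
/-- Every element of `M` keeping a singular vector of `P` in `P` stabilises `P`. -/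
def MapsSing (Q : QuadraticForm F (ι → F)) (W : Submodule F (ι → F)) (M : Subgroup (GL ι F)) : Prop :=
  ∀ g ∈ M, ∀ u ∈ perpW Q W, u ≠ 0 → Q u = 0 → ap g u ∈ perpW Q W →
    ∀ p ∈ perpW Q W, ap g p ∈ perpW Q W

/-- An element of `M` keeping a singular vector of `P` in `P` stabilises `P`. -/
lemma maps_of_mem {g : GL ι F} (hg : g ∈ M) {u : ι → F} (hu : u ∈ perpW Q W) (hu0 : u ≠ 0)
    (hQu : Q u = 0) (hgu : ap g u ∈ perpW Q W) : ∀ p ∈ perpW Q W, ap g p ∈ perpW Q W := by
  obtain ⟨w, hw, hQw, huw, hwu⟩ := exists_companion hQ hW hT hu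
  have hw0 : w ≠ 0 := fun h => hwu (h ▸ zero_mem _)
  have h1 := perp_maps hQ hW h4 hex hHM hMI hcon hn5 hg hu hu0 hQu hgu
  have h2 := perp_maps hQ hW h4 hex hHM hMI hcon hn5 hg hw hw0 hQw (h1 w hw huw)
  exact cover hQ hW hn5 hT hw hu hwu
    (fun x y hx hy => by rw [ap_add]; exact (perpW Q W).add_mem hx hy)
    (fun c x hx => by rw [ap_smul]; exact (perpW Q W).smul_mem c hx) h2 h1

lemma mapsSing_of_pairs : MapsSing Q W M := fun _ hh _ hv hv0 hQv hvP =>
  maps_of_mem hQ hW h4 hex hHM hMI hcon hn5 hT hh hv hv0 hQv hvP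

omit hT in
/-- The relation forced on the images of an orthogonal singular pair. -/
lemma key_of_maps (hmaps' : MapsSing Q W M) {g : GL ι F} (hg : g ∈ M) {u p : ι → F} (hu : u ∈ perpW Q W) (hp : p ∈ perpW Q W)
    (hQu : Q u = 0) (hup : polar Q u p = 0) (hgu : ap g u ∉ perpW Q W) {v z : ι → F}
    (hv : v ∈ perpW Q W) (hv0 : v ≠ 0) (hQv : Q v = 0)
    (hav : polar Q ((secW hW).π (ap g u)) v = 0) (hz : z ∈ perpW Q W)
    (haz : polar Q ((secW hW).π (ap g u)) z = 0) (hvz : polar Q v z = 0) :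
    polar Q ((secW hW).π (ap g p)) v • z -
        (polar Q ((secW hW).π (ap g p)) z + Q z * polar Q ((secW hW).π (ap g p)) v) • v +
      (polar Q ((secW hW).π (ap g p)) v * polar Q ((secW hW).π (ap g p)) v * Q z) •
        (secW hW).π (ap g u) = 0 := by
  set x := ap g u
  set y := ap g p
  set a := (secW hW).π x
  set b := (secW hW).π y
  have haP : a ∈ perpW Q W := (mem_secW hW).1 ((secW hW).mem_proj _)
  have hproj : ∀ q ∈ perpW Q W, ∀ t : ι → F, polar Q t q = polar Q ((secW hW).π t) q := fun q hq t => by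
    rw [polar_comm Q t q, polar_comm Q _ q, (secW hW).polar_π q t ((mem_secW hW).2 hq)]
  have hgI := hMI hg
  have hx : Q x = 0 := by rw [mem_isometryGroup_iff.mp hgI]; exact hQu
  have hxy : polar Q x y = 0 := by rw [polar_ap hgI]; exact hup
  have hm : sg Q x y hx hxy ∈ M := by
    rw [← conj_sg hgI hQu hup]
    exact mul_mem (mul_mem hg (hHM ⟨mem_subspaceStabilizer_of_mapsTo _ _ fun w hw => by
      rw [ap_sg_fix hQu hup (hu w hw) (hp w hw)]; exact hw, sg_mem hQ hn5 _ _⟩)) (inv_mem hg)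
  have hk : sg Q v z hQv hvz ∈ M := hHM ⟨mem_subspaceStabilizer_of_mapsTo _ _ fun w hw => by
    rw [ap_sg_fix hQv hvz (hv w hw) (hz w hw)]; exact hw, sg_mem hQ hn5 _ _⟩
  have hxv : polar Q x v = 0 := by rw [hproj v hv]; exact hav
  have hxz : polar Q x z = 0 := by rw [hproj z hz]; exact haz
  set c := polar Q b v with hc
  set w := c • z - (polar Q b z + Q z * c) • v with hwdef
  have hwP : w ∈ perpW Q W :=
    (perpW Q W).sub_mem ((perpW Q W).smul_mem _ hz) ((perpW Q W).smul_mem _ hv)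
  have hkx : ap (sg Q v z hQv hvz) x = x := ap_sg_fix hQv hvz hxv hxz
  have hky : ap (sg Q v z hQv hvz) y = y + w := by
    rw [ap_sg, hproj v hv y, hproj z hz y, hwdef]
    module
  have hxw : polar Q x w = 0 := by
    rw [hwdef, polar_sub_right, polar_smul_right, polar_smul_right, hxv, hxz]; simp
  have hh : sg Q x w hx hxw ∈ M := by
    have h1 := mul_mem (mul_mem hk hm) (inv_mem hk)
    rw [conj_sg (hMI hk)] at h1
    have hxyw : polar Q x (y + w) = 0 := by rw [polar_add_right, hxy, hxw, add_zero]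
    have h2 : sg Q x (y + w) hx hxyw ∈ M := by
      convert h1 using 2
      · exact hkx.symm
      · exact hky.symm
    rw [← sg_mul hx hxy hxw] at h2
    exact (mul_mem_cancel_left hm).1 h2
  set h := sg Q x w hx hxw
  have hvw : polar Q v w = 0 := by
    rw [hwdef, polar_sub_right, polar_smul_right, polar_smul_right, hvz, polar_self_mul, hQv]; simp
  have hhv : ap h v = v := ap_sg_fix hx hxw (by rw [polar_comm]; exact hxv) hvw
  have hmaps := hmaps' _ hh v hv hv0 hQv (by rw [hhv]; exact hv)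
  have hzero : w + Q w • a = 0 := by
    refine eq_zero_of_perp hQ hW ((perpW Q W).add_mem hwP ((perpW Q W).smul_mem _ haP))
      fun q hq => ?_
    have h1 := hmaps q hq
    rw [ap_sg] at h1
    have h2 : (polar Q q w + Q w * polar Q q x) • x ∈ perpW Q W := by
      have h3 := (perpW Q W).sub_mem ((perpW Q W).add_mem hq ((perpW Q W).smul_mem (polar Q q x) hwP)) h1
      rwa [sub_sub_cancel] at h3
    by_contra hne
    refine hgu ?_
    have hne' : polar Q q w + Q w * polar Q q x ≠ 0 := fun h0 => hne (by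
      rw [polar_add_left, polar_smul_left, polar_comm Q w q, ← hproj q hq x, polar_comm Q x q,
        smul_eq_mul]
      exact h0)
    have h4' := (perpW Q W).smul_mem (polar Q q w + Q w * polar Q q x)⁻¹ h2
    rwa [smul_smul, inv_mul_cancel₀ hne', one_smul] at h4'
  have hQw : Q w = c * c * Q z := by
    rw [hwdef, CfsgLib.ClassicalForms.map_sub_eq, QuadraticMap.map_smul, QuadraticMap.map_smul,
      polar_smul_left, polar_smul_right, polar_comm Q z v, hvz, hQv]
    simp only [smul_eq_mul]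
    ring
  rw [hQw] at hzero
  exact hzero

omit hT in
/-- The coefficient vanishes outside the exceptional case. -/
lemma coeff_eq_zero_of_maps (hmaps' : MapsSing Q W M) {g : GL ι F} (hg : g ∈ M) {u p : ι → F} (hu : u ∈ perpW Q W)
    (hp : p ∈ perpW Q W) (hQu : Q u = 0) (hup : polar Q u p = 0) (hgu : ap g u ∉ perpW Q W)
    (hok : 3 ≤ Nat.card F ∨ Module.finrank F W + 5 ≤ Fintype.card ι ∨
      Q ((secW hW).π (ap g u)) = 0)
    {v : ι → F} (hv : v ∈ perpW Q W) (hv0 : v ≠ 0) (hQv : Q v = 0)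
    (hav : polar Q ((secW hW).π (ap g u)) v = 0) :
    polar Q ((secW hW).π (ap g p)) v = 0 := by
  have hfr : Module.finrank F (ι → F) = Fintype.card ι := Module.finrank_fintype_fun_eq_card F
  set a := (secW hW).π (ap g u)
  set b := (secW hW).π (ap g p)
  by_contra hc
  have haP : a ∈ perpW Q W := (mem_secW hW).1 ((secW hW).mem_proj _)
  have key' : ∀ z ∈ perpW Q W, polar Q a z = 0 → polar Q v z = 0 →
      polar Q b v • z - (polar Q b z + Q z * polar Q b v) • v +
        (polar Q b v * polar Q b v * Q z) • a = 0 := fun z hz h1 h2 =>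
    key_of_maps hQ hW h4 hex hHM hMI hcon hn5 hmaps' hg hu hp hQu hup hgu hv hv0 hQv hav hz h1 h2
  have hspan : ∀ z ∈ perpW Q W, polar Q a z = 0 → polar Q v z = 0 →
      z ∈ Submodule.span F {v, a} := by
    intro z hz h1 h2
    refine Submodule.mem_span_pair.2 ⟨(polar Q b v)⁻¹ * (polar Q b z + Q z * polar Q b v),
      (polar Q b v)⁻¹ * (-(polar Q b v * polar Q b v * Q z)), ?_⟩
    have e : polar Q b v • z = (polar Q b z + Q z * polar Q b v) • v +
        (-(polar Q b v * polar Q b v * Q z)) • a := by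
      rw [← sub_eq_zero, ← key' z hz h1 h2]
      module
    rw [mul_smul, mul_smul, ← smul_add, ← e, inv_smul_smul₀ hc]
  obtain ⟨θ, hθ⟩ := exists_functional_ne_zero (F := F) hv0
  obtain ⟨z, hz0, hz⟩ := exists_ne_zero_ker
    (Fin.cons (polarBilin Q a) (Fin.cons (polarBilin Q v) (Fin.cons θ (secW hW).φ))) (by omega)
  have haz : polar Q a z = 0 := by simpa using hz 0
  have hvz : polar Q v z = 0 := by simpa using hz (Fin.succ 0)
  have hθz : θ z = 0 := by simpa only [Fin.cons_succ, Fin.cons_zero] using hz (Fin.succ (Fin.succ 0))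
  have hzP : z ∈ perpW Q W := (mem_secW hW).1 fun i => by
    simpa only [Fin.cons_succ] using hz i.succ.succ.succ
  have hav' : a ∉ Submodule.span F {v} := fun hmem => by
    obtain ⟨r, hr⟩ := Submodule.mem_span_singleton.1 hmem
    obtain ⟨s, t, hst⟩ := Submodule.mem_span_pair.1 (hspan z hzP haz hvz)
    rw [← hr, smul_smul, ← add_smul] at hst
    rw [← hst, map_smul, smul_eq_mul, mul_eq_zero] at hθz
    exact hz0 (by rw [← hst, hθz.resolve_right hθ, zero_smul])
  have haa : polar Q a a = 0 := by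
    obtain ⟨s, t, hst⟩ := Submodule.mem_span_pair.1 (hspan z hzP haz hvz)
    have ht : t ≠ 0 := fun h => by
      rw [h, zero_smul, add_zero] at hst
      rw [← hst, map_smul, smul_eq_mul, mul_eq_zero] at hθz
      exact hz0 (by rw [← hst, hθz.resolve_right hθ, zero_smul])
    rw [← hst, polar_add_right, polar_smul_right, polar_smul_right, hav, smul_zero, zero_add,
      smul_eq_mul, mul_eq_zero] at haz
    exact haz.resolve_left ht
  have hbig : ¬ Module.finrank F W + 5 ≤ Fintype.card ι := fun h5 => by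
    set a' := a - ((θ v)⁻¹ * θ a) • v with ha'
    have ha'0 : a' ≠ 0 := fun h0 => hav' (Submodule.mem_span_singleton.2
      ⟨(θ v)⁻¹ * θ a, (sub_eq_zero.1 h0).symm⟩)
    obtain ⟨θ', hθ'⟩ := exists_functional_ne_zero (F := F) ha'0
    obtain ⟨z', hz'0, hz'⟩ := exists_ne_zero_ker
      (Fin.cons (polarBilin Q a) (Fin.cons (polarBilin Q v)
        (Fin.cons θ (Fin.cons θ' (secW hW).φ)))) (by omega)
    have h1 : polar Q a z' = 0 := by simpa using hz' 0
    have h2 : polar Q v z' = 0 := by simpa using hz' (Fin.succ 0)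
    have h3 : θ z' = 0 := by
      simpa only [Fin.cons_succ, Fin.cons_zero] using hz' (Fin.succ (Fin.succ 0))
    have h3' : θ' z' = 0 := by
      simpa only [Fin.cons_succ, Fin.cons_zero] using hz' (Fin.succ (Fin.succ (Fin.succ 0)))
    have hP' : z' ∈ perpW Q W := (mem_secW hW).1 fun i => by
      simpa only [Fin.cons_succ] using hz' i.succ.succ.succ.succ
    obtain ⟨s, t, rfl⟩ := Submodule.mem_span_pair.1 (hspan z' hP' h1 h2)
    rw [map_add, map_smul, map_smul, smul_eq_mul, smul_eq_mul] at h3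
    have e : s • v + t • a = t • a' := by
      have hs : s = -(t * ((θ v)⁻¹ * θ a)) := by
        field_simp
        linear_combination h3
      rw [ha', hs]
      module
    rw [e, map_smul, smul_eq_mul, mul_eq_zero] at h3'
    exact hz'0 (by rw [e, h3'.resolve_right hθ', zero_smul])
  have hva : polar Q v a = 0 := by rw [polar_comm]; exact hav
  have hrel : ∀ t : F, t = 0 ∨ 1 + polar Q b v * t * Q a = 0 := by
    intro t
    have e := key' (t • a) ((perpW Q W).smul_mem t haP) (by rw [polar_smul_right, haa, smul_zero])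
      (by rw [polar_smul_right, hva, smul_zero])
    rw [QuadraticMap.map_smul, smul_smul, smul_eq_mul] at e
    by_contra hne
    push Not at hne
    refine hav' (Submodule.mem_span_singleton.2 ⟨(polar Q b v * t * (1 + polar Q b v * t * Q a))⁻¹ *
      (polar Q b (t • a) + t * t * Q a * polar Q b v), ?_⟩)
    have hne' : polar Q b v * t * (1 + polar Q b v * t * Q a) ≠ 0 :=
      mul_ne_zero (mul_ne_zero hc hne.1) hne.2
    have e' : (polar Q b v * t * (1 + polar Q b v * t * Q a)) • a =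
        (polar Q b (t • a) + t * t * Q a * polar Q b v) • v := by
      rw [← sub_eq_zero, ← e]
      module
    rw [mul_smul, ← e', inv_smul_smul₀ hne']
  rcases hrel 1 with h | h
  · exact one_ne_zero h
  rcases hok with h3 | h5 | hQa
  · have := Fintype.ofFinite F
    obtain ⟨s, hs⟩ : ∃ s : F, s ≠ 0 ∧ s ≠ 1 := by
      by_contra hall
      push Not at hall
      have hle : Nat.card F ≤ 2 := by
        classical
        rw [Nat.card_eq_fintype_card, ← Finset.card_univ]
        refine (Finset.card_le_card (t := ({0, 1} : Finset F)) fun s _ => ?_).trans Finset.card_le_two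
        by_cases hs : s = 0
        · simp [hs]
        · simp [hall s hs]
      omega
    rcases hrel s with h' | h'
    · exact hs.1 h'
    · have e : (polar Q b v * Q a) * (1 - s) = 0 := by linear_combination h - h'
      rcases mul_eq_zero.1 e with e | e
      · rw [mul_one] at h
        rw [e, add_zero] at h
        exact one_ne_zero h
      · exact hs.2 (sub_eq_zero.1 e).symm
  · exact hbig h5
  · rw [hQa, mul_zero, add_zero] at h
    exact one_ne_zero h

/-- The coefficient vanishes outside the exceptional case, with two hyperbolic pairs in `P`. -/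
lemma coeff_eq_zero {g : GL ι F} (hg : g ∈ M) {u p : ι → F} (hu : u ∈ perpW Q W)
    (hp : p ∈ perpW Q W) (hQu : Q u = 0) (hup : polar Q u p = 0) (hgu : ap g u ∉ perpW Q W)
    (hok : 3 ≤ Nat.card F ∨ Module.finrank F W + 5 ≤ Fintype.card ι ∨
      Q ((secW hW).π (ap g u)) = 0)
    {v : ι → F} (hv : v ∈ perpW Q W) (hv0 : v ≠ 0) (hQv : Q v = 0)
    (hav : polar Q ((secW hW).π (ap g u)) v = 0) :
    polar Q ((secW hW).π (ap g p)) v = 0 :=
  coeff_eq_zero_of_maps hQ hW h4 hex hHM hMI hcon hn5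
    (mapsSing_of_pairs hQ hW h4 hex hHM hMI hcon hn5 hT)
    hg hu hp hQu hup hgu hok hv hv0 hQv hav

/-- Outside the exceptional case the image of `u⊥` in `P` is the line of the image of `u`. -/
lemma proj_mem_line {g : GL ι F} (hg : g ∈ M) {u p : ι → F} (hu : u ∈ perpW Q W)
    (hp : p ∈ perpW Q W) (hQu : Q u = 0) (hup : polar Q u p = 0) (hgu : ap g u ∉ perpW Q W)
    (hok : 3 ≤ Nat.card F ∨ Module.finrank F W + 5 ≤ Fintype.card ι ∨
      Q ((secW hW).π (ap g u)) = 0) :
    (secW hW).π (ap g p) ∈ Submodule.span F {(secW hW).π (ap g u)} := by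
  by_contra hne
  obtain ⟨v, hv, hv0, hQv, hav, hbv⟩ := exists_singular_sep hQ hW hT
    ((mem_secW hW).1 ((secW hW).mem_proj _)) ((mem_secW hW).1 ((secW hW).mem_proj _)) hne
  exact hbv (coeff_eq_zero hQ hW h4 hex hHM hMI hcon hn5 hT hg hu hp hQu hup hgu hok hv hv0 hQv hav)

/-- Outside the exceptional case, an element not keeping a singular vector of `P` maps `P` to `W`. -/
theorem maps_into_W {g : GL ι F} (hg : g ∈ M)
    (hout : ∀ u ∈ perpW Q W, u ≠ 0 → Q u = 0 → ap g u ∉ perpW Q W)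
    (hok : 3 ≤ Nat.card F ∨ Module.finrank F W + 5 ≤ Fintype.card ι ∨
      ∃ u ∈ perpW Q W, u ≠ 0 ∧ Q u = 0 ∧ Q ((secW hW).π (ap g u)) = 0) :
    ∀ p ∈ perpW Q W, ap g p ∈ W := by
  obtain ⟨u, hu, hu0, hQu, hoku⟩ : ∃ u ∈ perpW Q W, u ≠ 0 ∧ Q u = 0 ∧
      (3 ≤ Nat.card F ∨ Module.finrank F W + 5 ≤ Fintype.card ι ∨
        Q ((secW hW).π (ap g u)) = 0) := by
    obtain ⟨e, f, he, -, hp, -, -⟩ := exists_hyp_perp hQ hW hT (zero_mem (perpW Q W))
    rcases hok with h | h | ⟨u, hu, hu0, hQu, hq⟩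
    · exact ⟨e, he, hp.fst_ne_zero, hp.1, Or.inl h⟩
    · exact ⟨e, he, hp.fst_ne_zero, hp.1, Or.inr (Or.inl h)⟩
    · exact ⟨u, hu, hu0, hQu, Or.inr (Or.inr hq)⟩
  let πg : (ι → F) →ₗ[F] (ι → F) := (secW hW).π.comp (apEquiv g).toLinearMap
  have hπg : ∀ x, πg x = (secW hW).π (ap g x) := fun x => rfl
  obtain ⟨v, hv, hv0, hQv, hπv⟩ : ∃ v ∈ perpW Q W, v ≠ 0 ∧ Q v = 0 ∧ πg v = 0 := by
    obtain ⟨w, hw, hQw, huw, hwu⟩ := exists_companion hQ hW hT hu
    have h := proj_mem_line hQ hW h4 hex hHM hMI hcon hn5 hT hg hu hw hQu huw (hout u hu hu0 hQu) hoku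
    obtain ⟨s, hs⟩ := Submodule.mem_span_singleton.1 h
    refine ⟨w - s • u, (perpW Q W).sub_mem hw ((perpW Q W).smul_mem _ hu), fun h0 => hwu
      (Submodule.mem_span_singleton.2 ⟨s, (sub_eq_zero.1 h0).symm⟩), ?_, ?_⟩
    · rw [CfsgLib.ClassicalForms.map_sub_eq, QuadraticMap.map_smul, polar_smul_right,
        polar_comm Q w u, huw, hQu, hQw]
      simp
    · rw [map_sub, map_smul, hπg, hπg, hs, sub_self]
  have hker : ∀ v ∈ perpW Q W, v ≠ 0 → Q v = 0 → πg v = 0 → ∀ p ∈ perpW Q W, polar Q v p = 0 →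
      πg p = 0 := by
    intro v hv hv0 hQv hπv p hp hvp
    have h := proj_mem_line hQ hW h4 hex hHM hMI hcon hn5 hT hg hv hp hQv hvp (hout v hv hv0 hQv)
      (Or.inr (Or.inr (by rw [← hπg, hπv, QuadraticMap.map_zero])))
    rw [← hπg, ← hπg, hπv, Submodule.span_zero_singleton, Submodule.mem_bot] at h
    exact h
  obtain ⟨w, hw, hQw, hvw, hwv⟩ := exists_companion hQ hW hT hv
  have h1 := hker v hv hv0 hQv hπv
  have h2 := hker w hw (fun h => hwv (h ▸ zero_mem _)) hQw (h1 w hw hvw)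
  intro p hp
  have h0 : πg p = 0 := cover hQ hW hn5 hT hw hv hwv
    (C := fun x => πg x = 0) (fun x y hx hy => by rw [map_add, hx, hy, add_zero])
    (fun c x hx => by rw [map_smul, hx, smul_zero]) h2 h1 p hp
  have h := sub_secW_π_mem hW (ap g p)
  rwa [← hπg, h0, sub_zero] at h

end CfsgLib.Geometric.Orth.Eight
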