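import Cfsg.Agent.Lib.Geometric.Orth.Eight.Two

/-!
Stabilisers in `omegaGL` of non-degenerate subspaces with orthogonal complement of dimension at least
four are maximal.
-/

namespace CfsgLib.Geometric.Orth.Eight

open Matrix QuadraticMap CfsgLib.ClassicalForms CfsgLib.Geometric CfsgLib.Geometric.Orth

variable {ι : Type} [Fintype ι] [DecidableEq ι] {F : Type*} [Field F] [Finite F]
variable {Q : QuadraticForm F (ι → F)} (hQ : Nondeg Q) {W : Submodule F (ι → F)}
  (hW : Cfsg.Geo.IsNondegenerateOn (polar (⇑Q)) W)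
include hQ hW

/-- The stabiliser of a non-degenerate subspace with a complement containing two orthogonal
hyperbolic pairs is maximal. -/
theorem nondeg_stab_isMaximalIn_of_pairs (hn : 5 ≤ Fintype.card ι)
    (h4 : Module.finrank F W + 4 ≤ Fintype.card ι) (hW0 : W ≠ ⊥) (hT : TwoPairs Q W)
    (hex : Nat.card F ≤ 3 → Module.finrank F W = 2 → ∀ x ∈ W, Q x = 0 → x = 0)
    (hswap : ∀ g ∈ Cfsg.isometryGroup F (⇑Q), (∀ p ∈ perpW Q W, ap g p ∈ W) → False)
    (hq : 3 ≤ Nat.card F ∨ Module.finrank F W + 5 ≤ Fintype.card ι ∨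
      (Module.finrank F W = 4 ∧ Fintype.card ι = 8 ∧
        ∀ U : Submodule F (ι → F), (∀ x ∈ U, Q x = 0) → Module.finrank F U ≠ 4)) :
    Cfsg.Geo.IsMaximalIn (Cfsg.Geo.omegaGL (⇑Q))
      (Cfsg.Geo.subspaceStabilizer W ⊓ Cfsg.Geo.omegaGL (⇑Q)) := by
  refine ⟨lt_of_le_of_ne inf_le_right fun he => ?_, fun M hHM hMS => ?_⟩
  · obtain ⟨u, f, huP, -, hp, -, -⟩ := exists_hyp_perp hQ hW hT (zero_mem (perpW Q W))
    obtain ⟨a, ha, ha0⟩ := Submodule.exists_mem_ne_zero_of_ne_bot hW0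
    obtain ⟨x, hx, hxa⟩ := (hW a ha ha0).1
    have hQu : Q u = 0 := hp.1
    have hua : polar Q u a = 0 := by rw [polar_comm]; exact huP a ha
    have hm : sg Q u a hQu hua ∈ Cfsg.Geo.subspaceStabilizer W ⊓ Cfsg.Geo.omegaGL (⇑Q) := by
      rw [he]; exact sg_mem hQ hn _ _
    have h : ap (sg Q u a hQu hua) x ∈ W :=
      ((mem_subspaceStabilizer_iff _ _).mp hm.1 x).mp hx
    rw [ap_sg, mem_perpW.mp huP x hx, zero_smul, add_zero, mul_zero, add_zero] at h
    refine hp.fst_ne_zero (eq_zero_of_mem_of_mem_perpW hW ?_ huP)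
    have h' := W.smul_mem (polar Q x a)⁻¹ (W.sub_mem hx h)
    rwa [sub_sub_cancel, smul_smul, inv_mul_cancel₀ hxa, one_smul] at h'
  by_cases hM : M ≤ Cfsg.Geo.subspaceStabilizer W
  · exact Or.inl (le_antisymm (le_inf hM hMS) hHM)
  refine Or.inr (le_antisymm hMS ?_)
  have hMI : M ≤ Cfsg.isometryGroup F (⇑Q) := hMS.trans omegaGL_le
  obtain ⟨g, hgM, hg⟩ := SetLike.not_le_iff_exists.mp hM
  by_contra hcon
  have hout : ∀ u ∈ perpW Q W, u ≠ 0 → Q u = 0 → ap g u ∉ perpW Q W := fun u hu hu0 hQu hgu =>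
    hg ((le_of_eq (stab_perpW_inf hW hQ)) ⟨mem_subspaceStabilizer_of_mapsTo g _
      (maps_of_mem hQ hW h4 hex hHM hMI hcon hn hT hgM hu hu0 hQu hgu), hMS hgM⟩).1
  by_cases hok : 3 ≤ Nat.card F ∨ Module.finrank F W + 5 ≤ Fintype.card ι ∨
      ∃ u ∈ perpW Q W, u ≠ 0 ∧ Q u = 0 ∧ Q ((secW hW).π (ap g u)) = 0
  · exact hswap g (hMI hgM) (maps_into_W hQ hW h4 hex hHM hMI hcon hn hT hgM hout hok)
  push Not at hok
  obtain ⟨hF, h5, hA⟩ := hok
  have hF2 : Nat.card F = 2 := by have := Finite.one_lt_card (α := F); omega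
  rcases hq with h | h | ⟨hk, hn8, hno⟩
  · omega
  · omega
  · exact false_of_two hQ hW h4 hex hHM hMI hcon hn hT hF2 hk hn8 hno hgM hout hA

/-- The stabiliser of a non-degenerate subspace with complement of dimension at least five, and not
smaller, is maximal. -/
theorem nondeg_stab_isMaximalIn_big (h5 : Module.finrank F W + 5 ≤ Fintype.card ι) (hW0 : W ≠ ⊥)
    (hlt : 2 * Module.finrank F W < Fintype.card ι)
    (hex : Nat.card F ≤ 3 → Module.finrank F W = 2 → ∀ x ∈ W, Q x = 0 → x = 0) :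
    Cfsg.Geo.IsMaximalIn (Cfsg.Geo.omegaGL (⇑Q))
      (Cfsg.Geo.subspaceStabilizer W ⊓ Cfsg.Geo.omegaGL (⇑Q)) := by
  refine nondeg_stab_isMaximalIn_of_pairs hQ hW (by omega) (by omega) hW0
    (twoPairs_of_big hQ hW h5) hex (fun g _ hgP => ?_) (Or.inr (Or.inl h5))
  have h : (perpW Q W).map (apEquiv g).toLinearMap ≤ W := by
    rintro _ ⟨x, hx, rfl⟩
    exact hgP x hx
  have h' := Submodule.finrank_mono h
  rw [LinearEquiv.finrank_map_eq] at h'
  have := finrank_add_perpW hW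
  omega

/-- In dimension eight without singular half, a four-space whose complement contains a singular
plane has maximal stabiliser. -/
theorem nondeg_stab_isMaximalIn_four (hn : Fintype.card ι = 8) (hW4 : Module.finrank F W = 4)
    (hno : ∀ U : Submodule F (ι → F), (∀ x ∈ U, Q x = 0) → Module.finrank F U ≠ 4)
    (hplus : Cfsg.Geo.IsPlusTypeOn (⇑Q) (perpW Q W)) :
    Cfsg.Geo.IsMaximalIn (Cfsg.Geo.omegaGL (⇑Q))
      (Cfsg.Geo.subspaceStabilizer W ⊓ Cfsg.Geo.omegaGL (⇑Q)) := by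
  have hdim := finrank_add_perpW hW
  obtain ⟨U, hUP, hU, hUd⟩ := hplus
  have b := Module.finBasisOfFinrankEq F U (show Module.finrank F U = 2 by omega)
  set x : ι → F := ((b 0 : U) : ι → F)
  set y : ι → F := ((b 1 : U) : ι → F)
  have hind : LinearIndependent F ![x, y] := by
    have h := b.linearIndependent.map' U.subtype U.ker_subtype
    have e : (U.subtype ∘ b) = ![x, y] := funext fun i => by fin_cases i <;> rfl
    rwa [e] at h
  have hxy := LinearIndependent.pair_iff.1 hind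
  have hnm : y ∉ Submodule.span F {x} := fun h => by
    obtain ⟨c, hc⟩ := Submodule.mem_span_singleton.1 h
    exact one_ne_zero (neg_eq_zero.1 (hxy c (-1) (by rw [hc]; simp)).2)
  have hnm' : x ∉ Submodule.span F {y} := fun h => by
    obtain ⟨c, hc⟩ := Submodule.mem_span_singleton.1 h
    exact one_ne_zero (neg_eq_zero.1 (hxy (-1) c (by rw [hc]; simp)).1)
  have hT := twoPairs_of_plane hQ hW (hUP (b 0).2) (hUP (b 1).2) (hU _ (b 0).2) (hU _ (b 1).2)
    (polar_eq_zero_of_mem hU (b 0).2 (b 1).2) hnm hnm'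
  refine nondeg_stab_isMaximalIn_of_pairs hQ hW (by omega) (by omega)
    (fun h => by rw [h, finrank_bot] at hW4; omega) hT (fun _ h => absurd h (by omega))
    (fun g hgI hgP => ?_) (Or.inr (Or.inr ⟨hW4, hn, hno⟩))
  obtain ⟨U', hU's, hU'd⟩ := exists_singular_half (W := W) (isNondegenerateOn_perpW hW hQ)
    ⟨2, by omega⟩ (fun a ha p hp => hp a ha) (fun a h1 h2 => eq_zero_of_mem_of_mem_perpW hW h1 h2)
    hgI hgP
  exact hno U' hU's (by omega)
where
  polar_eq_zero_of_mem {U : Submodule F (ι → F)} (hU : ∀ x ∈ U, Q x = 0) {a b : ι → F}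
      (ha : a ∈ U) (hb : b ∈ U) : polar Q a b = 0 := by
    simp [polar, hU _ (U.add_mem ha hb), hU a ha, hU b hb]

end CfsgLib.Geometric.Orth.Eight
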