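import Cfsg.Agent.Lib.Geometric.Orth.NondegStab

/-!
A subgroup above the stabiliser in `omegaGL` of a non-degenerate subspace containing a mixed Siegel
element is everything, as soon as the orthogonal complement has dimension at least four.
-/

namespace CfsgLib.Geometric.Orth.Eight

open Matrix QuadraticMap CfsgLib.ClassicalForms CfsgLib.Geometric CfsgLib.Geometric.Orth

variable {ι : Type} [Fintype ι] [DecidableEq ι] {F : Type*} [Field F] [Finite F]
variable {Q : QuadraticForm F (ι → F)}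

omit [DecidableEq ι] in
/-- A section of dimension at least two represents everything. -/
lemma exists_value_two {k : ℕ} (S : Sec Q k) (hQ : Nondeg Q) (hk : k + 2 ≤ Fintype.card ι) (c : F) :
    ∃ t, S.Mem t ∧ Q t = c := by
  classical
  have hfr : Module.finrank F (ι → F) = Fintype.card ι := Module.finrank_fintype_fun_eq_card F
  have hsing : ∀ e, S.Mem e → Q e = 0 → e ≠ 0 → ∃ t, S.Mem t ∧ Q t = c := fun e he hQe he0 => by
    obtain ⟨f, hf, h1, h2, h3⟩ := S.exists_partner hQ he hQe he0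
    refine ⟨e + c • f, S.mem_add he (S.mem_smul _ hf), ?_⟩
    rw [QuadraticMap.map_add (⇑Q), QuadraticMap.map_smul, polar_smul_right, h1, h2, h3]
    simp
  obtain ⟨a, ha, hQa⟩ := exists_mem_ne_zero_value S hQ (by omega)
  have := Fintype.ofFinite F
  by_cases h2 : (2 : F) = 0
  · have hF : ringChar F = 2 := by
      have h := (ringChar.spec F 2).1 (by exact_mod_cast h2)
      exact ((Nat.dvd_prime Nat.prime_two).1 h).resolve_left CharP.ringChar_ne_one
    obtain ⟨s, hs⟩ := FiniteField.isSquare_of_char_two hF (c * (Q a)⁻¹)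
    exact ⟨s • a, S.mem_smul _ ha, by
      rw [QuadraticMap.map_smul, smul_eq_mul, ← hs, inv_mul_cancel_right₀ hQa]⟩
  obtain ⟨b, hb0, hb⟩ := exists_ne_zero_ker (Fin.cons (polarBilin Q a) S.φ) (by omega)
  have hab : polar Q a b = 0 := by simpa using hb 0
  have hbS : S.Mem b := fun i => by simpa using hb i.succ
  by_cases hQb : Q b = 0
  · exact hsing b hbS hQb hb0
  have hodd : Fintype.card F % 2 = 1 := by
    refine FiniteField.odd_card_of_char_ne_two fun hc => h2 ?_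
    have : ((ringChar F : ℕ) : F) = 0 := ringChar.Nat.cast_ringChar
    rw [hc] at this
    exact_mod_cast this
  obtain ⟨x, y, h⟩ := FiniteField.exists_root_sum_quadratic
    (f := Polynomial.C (Q a) * Polynomial.X ^ 2)
    (g := Polynomial.C (Q b) * Polynomial.X ^ 2 - Polynomial.C c)
    (Polynomial.degree_C_mul_X_pow 2 hQa)
    (by rw [Polynomial.degree_sub_C]
        · exact Polynomial.degree_C_mul_X_pow 2 hQb
        · rw [Polynomial.degree_C_mul_X_pow 2 hQb]; norm_num)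
    hodd
  simp at h
  refine ⟨x • a + y • b, S.mem_add (S.mem_smul _ ha) (S.mem_smul _ hbS), ?_⟩
  rw [QuadraticMap.map_add (⇑Q), QuadraticMap.map_smul, QuadraticMap.map_smul, polar_smul_left,
    polar_smul_right, hab]
  simp only [smul_eq_mul, mul_zero, add_zero]
  linear_combination h

variable (hQ : Nondeg Q) {W : Submodule F (ι → F)}
  (hW : Cfsg.Geo.IsNondegenerateOn (polar (⇑Q)) W)
include hQ hW

/-- A reflection at a vector of `P` corrected to an element of the stabiliser. -/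
lemma exists_refl_elem (hn5 : 5 ≤ Fintype.card ι) (h4 : Module.finrank F W + 4 ≤ Fintype.card ι)
    {e f a : ι → F}
    (he : e ∈ perpW Q W) (hf : f ∈ perpW Q W) (hp : IsHypPair Q (e, f)) (ha : a ∈ perpW Q W)
    (hQa : Q a ≠ 0) :
    ∃ h ∈ Cfsg.Geo.subspaceStabilizer W ⊓ Cfsg.Geo.omegaGL (⇑Q), (∀ w ∈ W, ap h w = w) ∧
      ∀ x, (x = e ∨ x = f) → ap h x = x - ((Q a)⁻¹ * polar Q x a) • a := by
  set R := (secW hW).cut e f ((mem_secW hW).2 he) ((mem_secW hW).2 hf) hp
  obtain ⟨t, ht, hQt⟩ := exists_value_two R hQ (by omega) (Q a)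
  obtain ⟨het, hft, htS⟩ := (Sec.mem_cut_iff _ _ _ hp t).1 ht
  have htP : t ∈ perpW Q W := (mem_secW hW).1 htS
  have hQt' : Q t ≠ 0 := by rwa [hQt]
  have hr : refl Q a hQa * (refl Q t hQt')⁻¹ ∈ siegelGroup Q :=
    refl_div_mem_siegelGroup hQ (by rw [Module.finrank_fintype_fun_eq_card]; omega) hQa hQt'
      (by rw [hQt, mul_inv_cancel₀ hQa]; exact ⟨1, (one_mul 1).symm⟩)
  have hfixW : ∀ w ∈ W, ap (orthToGL Q (refl Q a hQa * (refl Q t hQt')⁻¹)) w = w := fun w hw => by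
    rw [ap_orthToGL, orth_mul_apply, refl_inv, refl_fix _ (htP w hw), refl_fix _ (ha w hw)]
  refine ⟨_, ⟨mem_subspaceStabilizer_of_mapsTo _ _ fun w hw => by rw [hfixW w hw]; exact hw,
    orthToGL_mem_omega' hQ (by omega) hr⟩, hfixW, fun x hx => ?_⟩
  have hxt : polar Q x t = 0 := by rcases hx with rfl | rfl <;> assumption
  rw [ap_orthToGL, orth_mul_apply, refl_inv, refl_fix _ hxt, refl_apply]

/-- Moving one member of a hyperbolic pair of `P` inside the stabiliser. -/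
lemma exists_move (hn5 : 5 ≤ Fintype.card ι) (h4 : Module.finrank F W + 4 ≤ Fintype.card ι)
    {e f : ι → F}
    (he : e ∈ perpW Q W) (hf : f ∈ perpW Q W) (hp : IsHypPair Q (e, f)) {c : F} (hc : c ≠ 0) :
    (∃ h ∈ Cfsg.Geo.subspaceStabilizer W ⊓ Cfsg.Geo.omegaGL (⇑Q),
      (∀ w ∈ W, ap h w = w) ∧ ap h e = f) ∧
    ∃ h ∈ Cfsg.Geo.subspaceStabilizer W ⊓ Cfsg.Geo.omegaGL (⇑Q),
      (∀ w ∈ W, ap h w = w) ∧ ap h e = c • e := by
  obtain ⟨he0, hf0, hef⟩ := hp
  have hfe : polar Q f e = 1 := by rw [polar_comm]; exact hef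
  have hval : ∀ d : F, d ≠ 0 → Q (e - d • f) ≠ 0 ∧ Q (f - d • e) ≠ 0 := fun d hd => by
    rw [CfsgLib.ClassicalForms.map_sub_eq, CfsgLib.ClassicalForms.map_sub_eq,
      QuadraticMap.map_smul, QuadraticMap.map_smul, polar_smul_right, polar_smul_right, he0, hf0,
      hef, hfe]
    simpa using hd
  obtain ⟨h₁, hh₁, hw₁, hx₁⟩ := exists_refl_elem hQ hW hn5 h4 he hf ⟨he0, hf0, hef⟩
    (a := e - f) ((perpW Q W).sub_mem he hf) (by simpa using (hval 1 one_ne_zero).1)
  obtain ⟨h₂, hh₂, hw₂, hx₂⟩ := exists_refl_elem hQ hW hn5 h4 he hf ⟨he0, hf0, hef⟩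
    (a := f - c • e) ((perpW Q W).sub_mem hf ((perpW Q W).smul_mem c he)) (hval c hc).2
  have e₁ : ap h₁ e = f := by
    have h := hx₁ e (Or.inl rfl)
    have hne : Q (e - f) ≠ 0 := by simpa using (hval 1 one_ne_zero).1
    rw [← refl_apply (e - f) hne, refl_sub_apply (by rw [he0, hf0]) hne] at h
    exact h
  have e₂ : ap h₂ f = c • e := by
    have h := hx₂ f (Or.inr rfl)
    rw [← refl_apply (f - c • e) (hval c hc).2,
      refl_sub_apply (by rw [QuadraticMap.map_smul, he0, hf0, smul_zero]) (hval c hc).2] at h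
    exact h
  exact ⟨⟨h₁, hh₁, hw₁, e₁⟩, h₂ * h₁, mul_mem hh₂ hh₁, fun w hw => by rw [ap_mul, hw₁ w hw, hw₂ w hw],
    by rw [ap_mul, e₁, e₂]⟩

/-- A subgroup above the stabiliser containing one mixed Siegel element is everything. -/
theorem le_of_mixed (h4 : Module.finrank F W + 4 ≤ Fintype.card ι)
    (hex : Nat.card F ≤ 3 → Module.finrank F W = 2 → ∀ x ∈ W, Q x = 0 → x = 0)
    {M : Subgroup (GL ι F)}
    (hHM : Cfsg.Geo.subspaceStabilizer W ⊓ Cfsg.Geo.omegaGL (⇑Q) ≤ M)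
    (hMI : M ≤ Cfsg.isometryGroup F (⇑Q)) {u₀ b₀ : ι → F} (hu₀P : u₀ ∈ perpW Q W)
    (hu₀0 : u₀ ≠ 0) (hu₀ : Q u₀ = 0) (hb₀W : b₀ ∈ W) (hb₀0 : b₀ ≠ 0)
    (hb₀ : polar Q u₀ b₀ = 0) (hm : sg Q u₀ b₀ hu₀ hb₀ ∈ M) :
    Cfsg.Geo.omegaGL (⇑Q) ≤ M := by
  have hn5 : 5 ≤ Fintype.card ι := by
    have : 0 < Module.finrank F W :=
      Nat.pos_of_ne_zero fun h => hb₀0 (by
        rw [Submodule.finrank_eq_zero] at h
        rw [h] at hb₀W
        simpa using hb₀W)
    omega
  obtain ⟨f, hfS, hpair⟩ := (secW hW).exists_partner hQ ((mem_secW hW).2 hu₀P) hu₀ hu₀0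
  have hfP : f ∈ perpW Q W := (mem_secW hW).1 hfS
  have hperp : ∀ b ∈ W, polar Q u₀ b = 0 := fun b hb => by rw [polar_comm]; exact hu₀P b hb
  let L : Submodule F (ι → F) :=
    { carrier := {b | b ∈ W ∧ ∀ hw : polar Q u₀ b = 0, sg Q u₀ b hu₀ hw ∈ M}
      zero_mem' := ⟨W.zero_mem, fun hw => by rw [sg_zero]; exact one_mem M⟩
      add_mem' := fun {b b'} hb hb' => ⟨W.add_mem hb.1 hb'.1, fun hw => by
        rw [← sg_mul hu₀ (hperp b hb.1) (hperp b' hb'.1)]
        exact mul_mem (hb.2 _) (hb'.2 _)⟩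
      smul_mem' := fun c b hb => ⟨W.smul_mem c hb.1, fun hw => by
        by_cases hc : c = 0
        · subst hc
          rw [sg_congr rfl (zero_smul F b), sg_zero]
          exact one_mem M
        obtain ⟨-, h, hh, hfix, he⟩ := exists_move hQ hW hn5 h4 hu₀P hfP hpair hc
        have h' := mul_mem (mul_mem (hHM hh) (hb.2 (hperp b hb.1))) (inv_mem (hHM hh))
        rw [conj_sg (omegaGL_le hh.2)] at h'
        have hQc : Q (c • u₀) = 0 := by rw [QuadraticMap.map_smul, hu₀, smul_zero]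
        have hwc : polar Q (c • u₀) b = 0 := by rw [polar_smul_left, hperp b hb.1, smul_zero]
        rw [← sg_smul_left c hQc hwc hu₀ hw]
        convert h' using 2
        · exact he.symm
        · exact (hfix b hb.1).symm⟩ }
  have hconj : ∀ h ∈ Cfsg.Geo.subspaceStabilizer W ⊓ Cfsg.Geo.omegaGL (⇑Q), ap h u₀ = u₀ →
      ∀ b ∈ L, ap h b ∈ L := by
    intro h hh hfix b hb
    refine ⟨((mem_subspaceStabilizer_iff _ _).mp hh.1 b).mp hb.1, fun hw => ?_⟩
    have h' := mul_mem (mul_mem (hHM hh) (hb.2 (hperp b hb.1))) (inv_mem (hHM hh))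
    rw [conj_sg (omegaGL_le hh.2)] at h'
    convert h' using 2
    exact hfix.symm
  have hb₀L : b₀ ∈ L := ⟨hb₀W, fun _ => hm⟩
  have hLW : L = W := by
    refine eq_of_invariant hQ hW hex (fun x hx => hx.1)
      (fun h => hb₀0 ((Submodule.mem_bot F).1 (h ▸ hb₀L))) (fun v hv hQv x hx => ?_)
      (fun s hs w hw hQs hsw x hx => ?_)
    · set R := (secW hW).cut u₀ f ((mem_secW hW).2 hu₀P) hfS hpair
      obtain ⟨p, hpR, hQp⟩ := exists_value_two R hQ (by omega) (Q v)
      obtain ⟨hup, -, hpS⟩ := (Sec.mem_cut_iff _ _ _ hpair p).1 hpR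
      have hp : p ∈ perpW Q W := (mem_secW hW).1 hpS
      have hQp' : Q p ≠ 0 := by rwa [hQp]
      have hr : refl Q v hQv * (refl Q p hQp')⁻¹ ∈ siegelGroup Q :=
        refl_div_mem_siegelGroup hQ (by rw [Module.finrank_fintype_fun_eq_card]; omega) hQv hQp'
          (by rw [hQp, mul_inv_cancel₀ hQv]; exact ⟨1, (one_mul 1).symm⟩)
      have happ : ∀ y ∈ W, ap (orthToGL Q (refl Q v hQv * (refl Q p hQp')⁻¹)) y =
          y - ((Q v)⁻¹ * polar Q y v) • v := fun y hy => by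
        rw [ap_orthToGL, orth_mul_apply, refl_inv, refl_fix _ (hp y hy), refl_apply]
      have hmem : orthToGL Q (refl Q v hQv * (refl Q p hQp')⁻¹) ∈
          Cfsg.Geo.subspaceStabilizer W ⊓ Cfsg.Geo.omegaGL (⇑Q) :=
        ⟨mem_subspaceStabilizer_of_mapsTo _ _ fun y hy => by
          rw [happ y hy]; exact W.sub_mem hy (W.smul_mem _ hv), orthToGL_mem_omega' hQ hn5 hr⟩
      have := hconj _ hmem (by
        rw [ap_orthToGL, orth_mul_apply, refl_inv, refl_fix _ hup, refl_fix _ (hperp v hv)]) x hx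
      rwa [happ x hx.1] at this
    · refine hconj _ ⟨mem_subspaceStabilizer_of_mapsTo _ _ fun y hy => ?_, sg_mem hQ hn5 _ _⟩
        (ap_sg_fix _ _ (hperp s hs) (hperp w hw)) x hx
      rw [ap_sg]
      exact W.sub_mem (W.add_mem hy (W.smul_mem _ hw)) (W.smul_mem _ hs)
  have hfull : Full Q M u₀ := by
    intro hQu w hw
    obtain ⟨a, ha, p, hp, rfl⟩ := exists_add_eq hW w
    have h1 : polar Q u₀ a = 0 := hperp a ha
    have h2 : polar Q u₀ p = 0 := by rwa [polar_add_right, h1, zero_add] at hw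
    rw [← sg_mul hQu h1 h2]
    refine mul_mem ?_ (hHM ⟨mem_subspaceStabilizer_of_mapsTo _ _ fun y hy => ?_,
      sg_mem hQ hn5 _ _⟩)
    · have ha' : a ∈ L := by rw [hLW]; exact ha
      exact ha'.2 h1
    · rw [ap_sg_fix hQu h2 (hu₀P y hy) (hp y hy)]; exact hy
  obtain ⟨⟨h, hh, -, he⟩, -⟩ := exists_move hQ hW hn5 h4 hu₀P hfP hpair (one_ne_zero (α := F))
  have hfull' : Full Q M f := he ▸ Full.ap hMI (hHM hh) hfull
  exact Full.le_of_pair hQ hn5 hMI hfull hfull' hu₀ hpair.2.1 (by rw [hpair.2.2]; exact one_ne_zero)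

end CfsgLib.Geometric.Orth.Eight
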