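import Cfsg.Agent.Lib.Geometric.Orth.Eight.Mixed

/-!
Singular vectors in a non-degenerate complement containing two orthogonal hyperbolic pairs.
-/

namespace CfsgLib.Geometric.Orth.Eight

open Matrix QuadraticMap CfsgLib.ClassicalForms CfsgLib.Geometric CfsgLib.Geometric.Orth

variable {ι : Type} [Fintype ι] [DecidableEq ι] {F : Type*} [Field F]
variable {Q : QuadraticForm F (ι → F)}

/-- Two orthogonal hyperbolic pairs in the complement of `W`. -/
def TwoPairs (Q : QuadraticForm F (ι → F)) (W : Submodule F (ι → F)) : Prop :=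
  ∃ e₁ f₁ e₂ f₂, e₁ ∈ perpW Q W ∧ f₁ ∈ perpW Q W ∧ e₂ ∈ perpW Q W ∧ f₂ ∈ perpW Q W ∧
    IsHypPair Q (e₁, f₁) ∧ IsHypPair Q (e₂, f₂) ∧ polar Q e₁ e₂ = 0 ∧ polar Q e₁ f₂ = 0 ∧
    polar Q f₁ e₂ = 0 ∧ polar Q f₁ f₂ = 0

omit [Fintype ι] [DecidableEq ι] in
/-- A vector of the plane of two independent singular orthogonal vectors orthogonal to `a`. -/
lemma exists_in_plane {x y : ι → F} (hx : Q x = 0) (hy : Q y = 0) (hxy : polar Q x y = 0)
    (hind : ∀ s t : F, s • x + t • y = 0 → s = 0 ∧ t = 0) (a : ι → F) :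
    ∃ s t : F, s • x + t • y ≠ 0 ∧ Q (s • x + t • y) = 0 ∧ polar Q a (s • x + t • y) = 0 := by
  have hQ' : ∀ s t : F, Q (s • x + t • y) = 0 := fun s t => by
    rw [QuadraticMap.map_add (⇑Q), QuadraticMap.map_smul, QuadraticMap.map_smul, polar_smul_left,
      polar_smul_right, hx, hy, hxy]
    simp
  by_cases h : polar Q a x = 0
  · refine ⟨1, 0, fun h0 => one_ne_zero (hind 1 0 h0).1, hQ' _ _, ?_⟩
    simpa using h
  · refine ⟨-polar Q a y, polar Q a x, fun h0 => h (hind _ _ h0).2, hQ' _ _, ?_⟩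
    rw [polar_add_right, polar_smul_right, polar_smul_right, smul_eq_mul, smul_eq_mul]
    ring

variable [Finite F] (hQ : Nondeg Q) {W : Submodule F (ι → F)}
  (hW : Cfsg.Geo.IsNondegenerateOn (polar (⇑Q)) W)
include hQ hW

omit [Finite F] in
/-- Separation inside the complement. -/
lemma exists_sep_perp {U : Submodule F (ι → F)} (hU : U ≤ perpW Q W) {x : ι → F}
    (hx : x ∈ perpW Q W) (hxU : x ∉ U) :
    ∃ y ∈ perpW Q W, (∀ u ∈ U, polar Q u y = 0) ∧ polar Q x y = 1 := by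
  obtain ⟨y, hy, hxy⟩ := exists_polar_sep hQ hxU
  refine ⟨(secW hW).π y, (mem_secW hW).1 ((secW hW).mem_proj y), fun u hu => ?_, ?_⟩
  · rw [(secW hW).polar_π u y ((mem_secW hW).2 (hU hu))]; exact hy u hu
  · rw [(secW hW).polar_π x y ((mem_secW hW).2 hx)]; exact hxy

omit [Finite F] [DecidableEq ι] in
/-- The complement is non-degenerate. -/
lemma eq_zero_of_perp {x : ι → F} (hx : x ∈ perpW Q W) (h : ∀ q ∈ perpW Q W, polar Q x q = 0) :
    x = 0 :=
  eq_zero_of_mem_of_mem_perpW hW (mem_of_forall_perpW hW hQ h) hx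

omit [Finite F] in
/-- The partner of a singular vector, orthogonal to `a`. -/
lemma exists_partner_perp {e a : ι → F} (he : e ∈ perpW Q W) (hQe : Q e = 0) (ha : a ∈ perpW Q W)
    (hae : polar Q a e = 0) (hind : e ∉ Submodule.span F {a}) :
    ∃ f ∈ perpW Q W, IsHypPair Q (e, f) ∧ polar Q a f = 0 := by
  obtain ⟨y, hy, hay, hey⟩ := exists_sep_perp hQ hW
    ((Submodule.span_singleton_le_iff_mem _ _).2 ha) he hind
  refine ⟨y - Q y • e, (perpW Q W).sub_mem hy ((perpW Q W).smul_mem _ he), ⟨hQe, ?_, ?_⟩, ?_⟩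
  · show Q (y - Q y • e) = 0
    rw [CfsgLib.ClassicalForms.map_sub_eq, QuadraticMap.map_smul, polar_smul_right, hQe,
      polar_comm Q y e, hey]
    simp
  · show polar Q e (y - Q y • e) = 1
    rw [polar_sub_right, polar_smul_right, polar_self_mul, hQe, hey]
    simp
  · rw [polar_sub_right, polar_smul_right, hay a (Submodule.mem_span_singleton_self a), hae]
    simp

omit [Finite F] in
/-- Two orthogonal hyperbolic pairs from a totally singular plane. -/
lemma twoPairs_of_plane {x y : ι → F} (hx : x ∈ perpW Q W) (hy : y ∈ perpW Q W) (hQx : Q x = 0)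
    (hQy : Q y = 0) (hxy : polar Q x y = 0) (hyx : y ∉ Submodule.span F {x})
    (hxy' : x ∉ Submodule.span F {y}) : TwoPairs Q W := by
  obtain ⟨f₁, hf₁, hp₁, hyf₁⟩ := exists_partner_perp hQ hW hx hQx hy
    (by rw [polar_comm]; exact hxy) hxy'
  obtain ⟨f₂, hf₂, hp₂, hxf₂⟩ := exists_partner_perp hQ hW hy hQy hx hxy hyx
  obtain ⟨hQ1, hQf1, h11⟩ := hp₁
  obtain ⟨hQ2, hQf2, h22⟩ := hp₂
  refine ⟨x, f₁, y, f₂ - polar Q f₁ f₂ • x, hx, hf₁, hy,
    (perpW Q W).sub_mem hf₂ ((perpW Q W).smul_mem _ hx), ⟨hQ1, hQf1, h11⟩, ⟨hQ2, ?_, ?_⟩, hxy, ?_,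
    by rw [polar_comm]; exact hyf₁, ?_⟩
  · show Q (f₂ - polar Q f₁ f₂ • x) = 0
    rw [CfsgLib.ClassicalForms.map_sub_eq, QuadraticMap.map_smul, polar_smul_right, hQ1, hQf2,
      polar_comm Q f₂ x, hxf₂]
    simp
  · show polar Q y (f₂ - polar Q f₁ f₂ • x) = 1
    rw [polar_sub_right, polar_smul_right, h22, polar_comm Q y x, hxy]
    simp
  · rw [polar_sub_right, polar_smul_right, hxf₂, polar_self_mul, hQ1]
    simp
  · rw [polar_sub_right, polar_smul_right, polar_comm Q f₁ x, h11]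
    simp

omit [DecidableEq ι] in
/-- A complement of dimension at least five contains two orthogonal hyperbolic pairs. -/
lemma twoPairs_of_big (h5 : Module.finrank F W + 5 ≤ Fintype.card ι) : TwoPairs Q W := by
  have hfr : Module.finrank F (ι → F) = Fintype.card ι := Module.finrank_fintype_fun_eq_card F
  obtain ⟨e₁, he₁0, hQe₁, he₁⟩ := exists_singular_ker Q (secW hW).φ (by omega)
  obtain ⟨f₁, hf₁, hp₁⟩ := (secW hW).exists_partner hQ he₁ hQe₁ he₁0
  set R := (secW hW).cut e₁ f₁ he₁ hf₁ hp₁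
  obtain ⟨e₂, he₂0, hQe₂, he₂⟩ := exists_singular_ker Q R.φ (by omega)
  obtain ⟨f₂, hf₂, hp₂⟩ := R.exists_partner hQ he₂ hQe₂ he₂0
  obtain ⟨a1, a2, a3⟩ := (Sec.mem_cut_iff _ _ _ hp₁ e₂).1 he₂
  obtain ⟨b1, b2, b3⟩ := (Sec.mem_cut_iff _ _ _ hp₁ f₂).1 hf₂
  exact ⟨e₁, f₁, e₂, f₂, (mem_secW hW).1 he₁, (mem_secW hW).1 hf₁, (mem_secW hW).1 a3,
    (mem_secW hW).1 b3, hp₁, hp₂, a1, b1, a2, b2⟩

variable (hT : TwoPairs Q W)
include hT

omit [Finite F] in
/-- A hyperbolic pair of the complement orthogonal to a given vector. -/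
lemma exists_hyp_perp {a : ι → F} (ha : a ∈ perpW Q W) :
    ∃ e f, e ∈ perpW Q W ∧ f ∈ perpW Q W ∧ IsHypPair Q (e, f) ∧ polar Q a e = 0 ∧
      polar Q a f = 0 := by
  obtain ⟨e₁, f₁, e₂, f₂, he₁, hf₁, he₂, hf₂, ⟨q1, r1, p1⟩, ⟨q2, r2, p2⟩, h12, h1f, hf2, hff⟩ := hT
  have hind : ∀ s t : F, s • e₁ + t • e₂ = 0 → s = 0 ∧ t = 0 := fun s t h => by
    have h1 := congrArg (polar Q f₁) h
    have h2 := congrArg (polar Q f₂) h
    rw [polar_add_right, polar_smul_right, polar_smul_right, polar_zero_right,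
      polar_comm Q f₁ e₁, p1, hf2] at h1
    rw [polar_add_right, polar_smul_right, polar_smul_right, polar_zero_right,
      polar_comm Q f₂ e₁, h1f, polar_comm Q f₂ e₂, p2] at h2
    exact ⟨by simpa using h1, by simpa using h2⟩
  have hind' : ∀ s t : F, s • f₁ + t • f₂ = 0 → s = 0 ∧ t = 0 := fun s t h => by
    have h1 := congrArg (polar Q e₁) h
    have h2 := congrArg (polar Q e₂) h
    rw [polar_add_right, polar_smul_right, polar_smul_right, polar_zero_right, p1, h1f] at h1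
    rw [polar_add_right, polar_smul_right, polar_smul_right, polar_zero_right, p2,
      polar_comm Q e₂ f₁, hf2] at h2
    exact ⟨by simpa using h1, by simpa using h2⟩
  obtain ⟨s, t, he0, hQe, hae⟩ := exists_in_plane q1 q2 h12 hind a
  obtain ⟨s', t', hf0, hQf, haf⟩ := exists_in_plane r1 r2 hff hind' a
  obtain ⟨e, he, hQe', hae', hne⟩ : ∃ e ∈ perpW Q W, Q e = 0 ∧ polar Q a e = 0 ∧
      e ∉ Submodule.span F {a} := by
    by_cases h : s • e₁ + t • e₂ ∈ Submodule.span F {a}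
    swap
    · exact ⟨_, (perpW Q W).add_mem ((perpW Q W).smul_mem _ he₁) ((perpW Q W).smul_mem _ he₂), hQe,
        hae, h⟩
    refine ⟨_, (perpW Q W).add_mem ((perpW Q W).smul_mem _ hf₁) ((perpW Q W).smul_mem _ hf₂), hQf,
      haf, fun h' => ?_⟩
    obtain ⟨α, hα⟩ := Submodule.mem_span_singleton.1 h
    obtain ⟨β, hβ⟩ := Submodule.mem_span_singleton.1 h'
    have hα0 : α ≠ 0 := fun e => he0 (by rw [← hα, e, zero_smul])
    have e : s' • f₁ + t' • f₂ = (β / α) • (s • e₁ + t • e₂) := by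
      rw [← hα, ← hβ, smul_smul, div_mul_cancel₀ _ hα0]
    have h1 := congrArg (polar Q e₁) e
    have h2 := congrArg (polar Q e₂) e
    simp only [polar_add_right, polar_smul_right, polar_self_mul, p1, h1f, p2, q1, q2, h12,
      polar_comm Q e₂ f₁, hf2, polar_comm Q e₂ e₁, smul_eq_mul] at h1 h2
    refine hf0 ?_
    rw [show s' = 0 by simpa using h1, show t' = 0 by simpa using h2, zero_smul, zero_smul,
      add_zero]
  obtain ⟨f, hf, hp, haf'⟩ := exists_partner_perp hQ hW he hQe' ha hae' hne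
  exact ⟨e, f, he, hf, hp, hae', haf'⟩

omit [Finite F] in
/-- Singular vectors orthogonal to `a` separate the vectors outside the line of `a`. -/
lemma exists_singular_sep {a b : ι → F}
    (ha : a ∈ perpW Q W) (hb : b ∈ perpW Q W) (hab : b ∉ Submodule.span F {a}) :
    ∃ v ∈ perpW Q W, v ≠ 0 ∧ Q v = 0 ∧ polar Q a v = 0 ∧ polar Q b v ≠ 0 := by
  suffices h : ∃ v ∈ perpW Q W, Q v = 0 ∧ polar Q a v = 0 ∧ polar Q b v ≠ 0 by
    obtain ⟨v, h1, h2, h3', h4⟩ := h
    exact ⟨v, h1, fun h0 => h4 (by rw [h0, polar_zero_right]), h2, h3', h4⟩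
  obtain ⟨e, f, he, hf, ⟨hQe, hQf, hef⟩, hae, haf⟩ := exists_hyp_perp hQ hW hT ha
  by_cases hbe : polar Q b e = 0
  swap; · exact ⟨e, he, hQe, hae, hbe⟩
  by_cases hbf : polar Q b f = 0
  swap; · exact ⟨f, hf, hQf, haf, hbf⟩
  have he' : e ∉ Submodule.span F {a, b} := fun h => by
    obtain ⟨s, t, hst⟩ := Submodule.mem_span_pair.1 h
    have h1 : polar Q e f = 1 := hef
    rw [← hst, polar_add_left, polar_smul_left, polar_smul_left, haf, hbf] at h1
    simp at h1
  obtain ⟨y₁, hy₁, hy₁U, hey₁⟩ := exists_sep_perp hQ hW (U := Submodule.span F {a, b})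
    (Submodule.span_le.2 (by
      intro x hx
      simp only [Set.mem_insert_iff, Set.mem_singleton_iff] at hx
      rcases hx with rfl | rfl <;> assumption)) he he'
  have hay₁ : polar Q a y₁ = 0 := hy₁U a (Submodule.subset_span (by simp))
  have hby₁ : polar Q b y₁ = 0 := hy₁U b (Submodule.subset_span (by simp))
  obtain ⟨y₀, hy₀, hy₀U, hby₀⟩ := exists_sep_perp hQ hW
    ((Submodule.span_singleton_le_iff_mem _ _).2 ha) hb hab
  have hay₀ : polar Q a y₀ = 0 := hy₀U a (Submodule.mem_span_singleton_self a)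
  set y := y₀ + (1 - polar Q e y₀) • y₁
  have hey : polar Q e y = 1 := by
    rw [polar_add_right, polar_smul_right, hey₁, smul_eq_mul, mul_one]; ring
  refine ⟨y - Q y • e, (perpW Q W).sub_mem ((perpW Q W).add_mem hy₀ ((perpW Q W).smul_mem _ hy₁))
    ((perpW Q W).smul_mem _ he), ?_, ?_, ?_⟩
  · rw [CfsgLib.ClassicalForms.map_sub_eq, QuadraticMap.map_smul, polar_smul_right, hQe,
      polar_comm Q y e, hey]
    simp
  · rw [polar_sub_right, polar_smul_right, hae, polar_add_right, polar_smul_right, hay₀, hay₁]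
    simp
  · rw [polar_sub_right, polar_smul_right, hbe, polar_add_right, polar_smul_right, hby₀, hby₁]
    simp

omit [Finite F] in
/-- An independent singular vector orthogonal to a given one. -/
lemma exists_companion {v : ι → F} (hv : v ∈ perpW Q W) :
    ∃ w ∈ perpW Q W, Q w = 0 ∧ polar Q v w = 0 ∧ w ∉ Submodule.span F {v} := by
  obtain ⟨e, f, he, hf, ⟨hQe, -, hef⟩, hve, hvf⟩ := exists_hyp_perp hQ hW hT hv
  refine ⟨e, he, hQe, hve, fun h => ?_⟩
  obtain ⟨c, hc⟩ := Submodule.mem_span_singleton.1 h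
  have h1 : polar Q e f = 1 := hef
  rw [← hc, polar_smul_left, hvf] at h1
  simp at h1

end CfsgLib.Geometric.Orth.Eight
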