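import Cfsg.Agent.Lib.Geometric.Orth.Eight.Core

/-!
The exceptional case of the commutator argument: two elements, four-dimensional halves.
-/

namespace CfsgLib.Geometric.Orth.Eight

open Matrix QuadraticMap CfsgLib.ClassicalForms CfsgLib.Geometric CfsgLib.Geometric.Orth

variable {ι : Type} [Fintype ι] [DecidableEq ι] {F : Type*} [Field F] [Finite F]
variable {Q : QuadraticForm F (ι → F)} (hQ : Nondeg Q) {W : Submodule F (ι → F)}
  (hW : Cfsg.Geo.IsNondegenerateOn (polar (⇑Q)) W)
  (h4 : Module.finrank F W + 4 ≤ Fintype.card ι)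
  (hex : Nat.card F ≤ 3 → Module.finrank F W = 2 → ∀ x ∈ W, Q x = 0 → x = 0)
  {M : Subgroup (GL ι F)} (hHM : Cfsg.Geo.subspaceStabilizer W ⊓ Cfsg.Geo.omegaGL (⇑Q) ≤ M)
  (hMI : M ≤ Cfsg.isometryGroup F (⇑Q)) (hcon : ¬ Cfsg.Geo.omegaGL (⇑Q) ≤ M)
  (hn5 : 5 ≤ Fintype.card ι) (hT : TwoPairs Q W)

omit [Fintype ι] [DecidableEq ι] in
lemma eq_one_of_ne (hF : Nat.card F = 2) {x : F} (hx : x ≠ 0) : x = 1 := by
  have := Fintype.ofFinite F
  have h := FiniteField.pow_card_sub_one_eq_one x hx
  rwa [← Nat.card_eq_fintype_card, hF, pow_one] at h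

include hQ hW h4 hex hHM hMI hcon hn5 hT

/-- With two elements, a vector of the half over which the images pair to zero has image in the line. -/
lemma proj_mem_line_two (hF : Nat.card F = 2) {g : GL ι F} (hg : g ∈ M) {u p : ι → F}
    (hu : u ∈ perpW Q W) (hp : p ∈ perpW Q W) (hQu : Q u = 0) (hup : polar Q u p = 0)
    (hgu : ap g u ∉ perpW Q W) (hQa : Q ((secW hW).π (ap g u)) = 1)
    (hab : polar Q ((secW hW).π (ap g u)) ((secW hW).π (ap g p)) = 0) :
    (secW hW).π (ap g p) ∈ Submodule.span F {(secW hW).π (ap g u)} := by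
  by_contra hne
  set a := (secW hW).π (ap g u)
  set b := (secW hW).π (ap g p)
  have haP : a ∈ perpW Q W := (mem_secW hW).1 ((secW hW).mem_proj _)
  have hbP : b ∈ perpW Q W := (mem_secW hW).1 ((secW hW).mem_proj _)
  obtain ⟨v, hv, hv0, hQv, hav, hbv⟩ := exists_singular_sep hQ hW hT haP hbP hne
  have h2 : (2 : F) = 0 := by
    by_contra h2
    have e := eq_one_of_ne hF h2
    exact one_ne_zero (by linear_combination e : (1 : F) = 0)
  have haa : polar Q a a = 0 := by rw [polar_self_mul, h2, zero_mul]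
  have hk := key_of_maps hQ hW h4 hex hHM hMI hcon hn5
    (mapsSing_of_pairs hQ hW h4 hex hHM hMI hcon hn5 hT) hg hu hp hQu hup hgu hv hv0 hQv hav haP haa
    (by rw [polar_comm]; exact hav)
  rw [polar_comm Q b a, hab, hQa, eq_one_of_ne hF hbv] at hk
  refine hv0 ?_
  rw [← hk]
  have h2' : (-1 : F) = 1 := by linear_combination -h2
  have e : (1 : F) • a - (0 + 1 * 1 : F) • v + (1 * 1 * 1 : F) • a =
      (2 : F) • a + (-1 : F) • v := by module
  rw [e, h2, h2', zero_smul, zero_add, one_smul]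

/-- The exceptional configuration cannot happen without a totally singular half. -/
theorem false_of_two (hF : Nat.card F = 2) (hk4 : Module.finrank F W = 4)
    (hn8 : Fintype.card ι = 8)
    (hno : ∀ U : Submodule F (ι → F), (∀ x ∈ U, Q x = 0) → Module.finrank F U ≠ 4)
    {g : GL ι F} (hg : g ∈ M)
    (hout : ∀ u ∈ perpW Q W, u ≠ 0 → Q u = 0 → ap g u ∉ perpW Q W)
    (hA : ∀ u ∈ perpW Q W, u ≠ 0 → Q u = 0 → Q ((secW hW).π (ap g u)) ≠ 0) : False := by
  classical
  have hfr : Module.finrank F (ι → F) = Fintype.card ι := Module.finrank_fintype_fun_eq_card F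
  have h2 : (2 : F) = 0 := by
    by_contra h2
    have e := eq_one_of_ne hF h2
    exact one_ne_zero (by linear_combination e : (1 : F) = 0)
  have hneg : ∀ x : F, -x = x := fun x => by linear_combination -x * h2
  have hQ1 : ∀ {x : ι → F}, Q x ≠ 0 → Q x = 1 := fun h => eq_one_of_ne hF h
  let πg : (ι → F) →ₗ[F] (ι → F) := (secW hW).π.comp (apEquiv g).toLinearMap
  have hπg : ∀ x, πg x = (secW hW).π (ap g x) := fun x => rfl
  have hπmem : ∀ x, πg x ∈ perpW Q W := fun x => (mem_secW hW).1 ((secW hW).mem_proj _)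
  have hA' : ∀ u ∈ perpW Q W, u ≠ 0 → Q u = 0 → Q (πg u) = 1 := fun u hu hu0 hQu =>
    hQ1 (hA u hu hu0 hQu)
  have hgI := hMI hg
  -- non-singular vectors of the kernel
  have hker : ∀ u ∈ perpW Q W, u ≠ 0 → Q u = 0 →
      ∃ k ∈ perpW Q W, πg k = 0 ∧ Q k = 1 ∧ polar Q u k = 0 := by
    intro u hu hu0 hQu
    obtain ⟨θ, hθ⟩ := exists_functional_ne_zero (F := F) hu0
    obtain ⟨p, hp0, hp⟩ := exists_ne_zero_ker
      (Fin.cons ((polarBilin Q (πg u)).comp πg) (Fin.cons (polarBilin Q u)
        (Fin.cons θ (secW hW).φ))) (by omega)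
    have hab : polar Q (πg u) (πg p) = 0 := by simpa using hp 0
    have hup : polar Q u p = 0 := by simpa using hp (Fin.succ 0)
    have hθp : θ p = 0 := by
      simpa only [Fin.cons_succ, Fin.cons_zero] using hp (Fin.succ (Fin.succ 0))
    have hpP : p ∈ perpW Q W := (mem_secW hW).1 fun i => by
      simpa only [Fin.cons_succ] using hp i.succ.succ.succ
    obtain ⟨c, hc⟩ := Submodule.mem_span_singleton.1 (proj_mem_line_two hQ hW h4 hex hHM hMI hcon
      hn5 hT hF hg hu hpP hQu hup (hout u hu hu0 hQu) (hA' u hu hu0 hQu) hab)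
    have hkP : p - c • u ∈ perpW Q W := (perpW Q W).sub_mem hpP ((perpW Q W).smul_mem c hu)
    have hπk : πg (p - c • u) = 0 := by rw [map_sub, map_smul, hπg, hπg, hc, sub_self]
    have hk0 : p - c • u ≠ 0 := fun h => by
      rw [sub_eq_zero] at h
      rw [h, map_smul, smul_eq_mul, mul_eq_zero] at hθp
      exact hp0 (by rw [h, hθp.resolve_right hθ, zero_smul])
    refine ⟨_, hkP, hπk, hQ1 fun h0 => ?_, by
      rw [polar_sub_right, polar_smul_right, hup, polar_self_mul, hQu]; simp⟩
    have := hA' _ hkP hk0 h0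
    rw [hπk, QuadraticMap.map_zero] at this
    exact zero_ne_one this
  obtain ⟨e₀, f₀, he₀, -, hp₀, -, -⟩ := exists_hyp_perp hQ hW hT (zero_mem (perpW Q W))
  obtain ⟨k₁, hk₁, hπk₁, hQk₁, -⟩ := hker e₀ he₀ hp₀.fst_ne_zero hp₀.1
  have hk₁0 : k₁ ≠ 0 := fun h => by rw [h, QuadraticMap.map_zero] at hQk₁; exact zero_ne_one hQk₁
  obtain ⟨u₂, hu₂, hQu₂, hu₂k₁⟩ := (secW hW).exists_singular_polar_one hQ (by omega)
    ((mem_secW hW).2 hk₁) hk₁0
  have hu₂0 : u₂ ≠ 0 := fun h => by rw [h, polar_zero_left] at hu₂k₁; exact zero_ne_one hu₂k₁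
  obtain ⟨k₂, hk₂, hπk₂, hQk₂, hu₂k₂⟩ := hker u₂ ((mem_secW hW).1 hu₂) hu₂0 hQu₂
  have hk12ne : k₁ + k₂ ≠ 0 := fun h => by
    have := congrArg (polar Q u₂) h
    rw [polar_add_right, hu₂k₁, hu₂k₂, polar_zero_right, add_zero] at this
    exact one_ne_zero this
  have hk12 : polar Q k₁ k₂ = 1 := by
    have h : Q (k₁ + k₂) = 1 := hQ1 fun h0 => by
      have := hA' _ ((perpW Q W).add_mem hk₁ hk₂) hk12ne h0
      rw [map_add, hπk₁, hπk₂, add_zero, QuadraticMap.map_zero] at this
      exact zero_ne_one this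
    rw [QuadraticMap.map_add (⇑Q), hQk₁, hQk₂] at h
    linear_combination h - h2
  -- the images in `W`
  have hm : ∀ k, πg k = 0 → ap g k ∈ W := fun k h => by
    have h' := sub_secW_π_mem hW (ap g k)
    rwa [← hπg, h, sub_zero] at h'
  have hm₁ := hm k₁ hπk₁
  have hm₂ := hm k₂ hπk₂
  let lam : (ι → F) →ₗ[F] (ι → F) := (apEquiv g).toLinearMap - πg
  have hlam : ∀ x, lam x = ap g x - πg x := fun x => rfl
  have hlamW : ∀ x, lam x ∈ W := fun x => by rw [hlam, hπg]; exact sub_secW_π_mem hW _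
  have hsplit : ∀ p ∈ perpW Q W, ∃ (s t : F) (r : ι → F), r ∈ perpW Q W ∧ polar Q k₁ r = 0 ∧
      polar Q k₂ r = 0 ∧ p = s • k₁ + t • k₂ + r := by
    intro p hp
    refine ⟨polar Q k₂ p, polar Q k₁ p, p - polar Q k₂ p • k₁ - polar Q k₁ p • k₂,
      (perpW Q W).sub_mem ((perpW Q W).sub_mem hp ((perpW Q W).smul_mem _ hk₁))
        ((perpW Q W).smul_mem _ hk₂), ?_, ?_, by abel⟩
    · rw [polar_sub_right, polar_sub_right, polar_smul_right, polar_smul_right, polar_self_mul, h2,
        hk12]
      simp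
    · rw [polar_sub_right, polar_sub_right, polar_smul_right, polar_smul_right, polar_self_mul, h2,
        polar_comm Q k₂ k₁, hk12]
      simp
  -- vectors of `P` orthogonal to the kernel
  have hrQ : ∀ r ∈ perpW Q W, polar Q k₁ r = 0 → polar Q k₂ r = 0 → r ≠ 0 → Q r ≠ 0 := by
    intro r hr h1 h2' hr0 hQr
    obtain ⟨r', hr', hp'⟩ := (secW hW).exists_partner hQ ((mem_secW hW).2 hr) hQr hr0
    obtain ⟨w, hw, hQw, hrw, hwr⟩ := exists_companion hQ hW hT hr
    have hr'P : r' ∈ perpW Q W := (mem_secW hW).1 hr'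
    set q := r' - polar Q k₂ r' • k₁ - polar Q k₁ r' • k₂
    have hqP : q ∈ perpW Q W :=
      (perpW Q W).sub_mem ((perpW Q W).sub_mem hr'P ((perpW Q W).smul_mem _ hk₁))
        ((perpW Q W).smul_mem _ hk₂)
    have hq1 : polar Q k₁ q = 0 := by
      rw [polar_sub_right, polar_sub_right, polar_smul_right, polar_smul_right, polar_self_mul, h2,
        hk12]
      simp
    have hq2 : polar Q k₂ q = 0 := by
      rw [polar_sub_right, polar_sub_right, polar_smul_right, polar_smul_right, polar_self_mul, h2,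
        polar_comm Q k₂ k₁, hk12]
      simp
    have hqr : polar Q r q = 1 := by
      rw [polar_sub_right, polar_sub_right, polar_smul_right, polar_smul_right, polar_comm Q r k₁,
        h1, polar_comm Q r k₂, h2', hp'.2.2]
      simp
    set w' := w - polar Q k₂ w • k₁ - polar Q k₁ w • k₂
    have hw'P : w' ∈ perpW Q W :=
      (perpW Q W).sub_mem ((perpW Q W).sub_mem hw ((perpW Q W).smul_mem _ hk₁))
        ((perpW Q W).smul_mem _ hk₂)
    set w'' := w' - polar Q q w' • r
    have hw''P : w'' ∈ perpW Q W := (perpW Q W).sub_mem hw'P ((perpW Q W).smul_mem _ hr)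
    have o1 : polar Q k₁ w'' = 0 := by
      rw [polar_sub_right, polar_smul_right, h1, polar_sub_right, polar_sub_right, polar_smul_right,
        polar_smul_right, polar_self_mul, h2, hk12]
      simp
    have o2 : polar Q k₂ w'' = 0 := by
      rw [polar_sub_right, polar_smul_right, h2', polar_sub_right, polar_sub_right,
        polar_smul_right, polar_smul_right, polar_self_mul, h2, polar_comm Q k₂ k₁, hk12]
      simp
    have hrr : polar Q r r = 0 := by rw [polar_self_mul, h2, zero_mul]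
    have o3 : polar Q r w'' = 0 := by
      rw [polar_sub_right, polar_smul_right, hrr, polar_sub_right, polar_sub_right,
        polar_smul_right, polar_smul_right, hrw, polar_comm Q r k₁, h1, polar_comm Q r k₂, h2']
      simp
    have o4 : polar Q q w'' = 0 := by
      rw [polar_sub_right, polar_smul_right, polar_comm Q q r, hqr, smul_eq_mul, mul_one, sub_self]
    -- the four vectors fill `P`
    have hind : LinearIndependent F ![k₁, k₂, r, q] := by
      rw [Fintype.linearIndependent_iff]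
      intro c hc
      simp only [Fin.sum_univ_four, Matrix.cons_val_zero, Matrix.cons_val_one, Matrix.cons_val] at hc
      have a1 := congrArg (polar Q k₂) hc
      have a2 := congrArg (polar Q k₁) hc
      have a3 := congrArg (polar Q q) hc
      have a4 := congrArg (polar Q r) hc
      simp only [polar_add_right, polar_smul_right, polar_zero_right, polar_self_mul, h2, zero_mul,
        polar_comm Q k₂ k₁, hk12, h1, h2', hq1, hq2, polar_comm Q q k₁, polar_comm Q q k₂,
        polar_comm Q q r, hqr, polar_comm Q r k₁, polar_comm Q r k₂, smul_eq_mul, mul_zero,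
        mul_one, add_zero, zero_add] at a1 a2 a3 a4
      intro i
      fin_cases i <;> assumption
    have hspan : Submodule.span F (Set.range ![k₁, k₂, r, q]) = perpW Q W := by
      refine Submodule.eq_of_le_of_finrank_le (Submodule.span_le.2 ?_) ?_
      · rintro _ ⟨i, rfl⟩
        fin_cases i <;> assumption
      · rw [finrank_span_eq_card hind, Fintype.card_fin]
        have := finrank_add_perpW hW
        omega
    have hw''0 : w'' = 0 := eq_zero_of_perp hQ hW hw''P fun x hx => by
      rw [← hspan] at hx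
      have hle : Submodule.span F (Set.range ![k₁, k₂, r, q]) ≤ LinearMap.ker (polarBilin Q w'') := by
        rw [Submodule.span_le]
        rintro _ ⟨i, rfl⟩
        show polar Q w'' _ = 0
        rw [polar_comm]
        fin_cases i <;> assumption
      exact hle hx
    -- so `w` is a singular vector of `⟨k₁, k₂, r⟩`, hence a multiple of `r`
    have hw' : w = polar Q k₂ w • k₁ + polar Q k₁ w • k₂ + polar Q q w' • r := by
      rw [← sub_eq_zero, ← hw''0]
      simp only [w'', w']
      abel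
    have e : polar Q k₂ w * polar Q k₂ w + polar Q k₁ w * polar Q k₁ w +
        polar Q k₂ w * polar Q k₁ w = 0 := by
      have e1 := hQw
      rw [hw', QuadraticMap.map_add (⇑Q), QuadraticMap.map_add (⇑Q), polar_add_left] at e1
      simp only [QuadraticMap.map_smul, polar_smul_left, polar_smul_right, hQk₁, hQk₂, hk12, hQr,
        h1, h2', smul_eq_mul, mul_zero, mul_one, add_zero] at e1
      linear_combination e1
    have hz : polar Q k₂ w = 0 ∧ polar Q k₁ w = 0 := by
      by_cases hs : polar Q k₂ w = 0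
      · rw [hs] at e
        exact ⟨hs, mul_self_eq_zero.1 (by linear_combination e)⟩
      · exfalso
        rw [eq_one_of_ne hF hs] at e
        by_cases ht : polar Q k₁ w = 0
        · rw [ht] at e; exact one_ne_zero (by linear_combination e : (1 : F) = 0)
        · rw [eq_one_of_ne hF ht] at e
          exact one_ne_zero (by linear_combination e - h2 : (1 : F) = 0)
    exact hwr (Submodule.mem_span_singleton.2 ⟨polar Q q w', by
      conv_rhs => rw [hw', hz.1, hz.2, zero_smul, zero_smul, zero_add, zero_add]⟩)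
  -- their images in `W` are singular
  have hlamQ : ∀ r ∈ perpW Q W, polar Q k₁ r = 0 → polar Q k₂ r = 0 → Q (lam r) = 0 := by
    intro r hr h1 h2'
    by_cases hr0 : r = 0
    · rw [hr0, map_zero, QuadraticMap.map_zero]
    have hQr : Q r = 1 := hQ1 (hrQ r hr h1 h2' hr0)
    have hne : r + k₁ ≠ 0 := fun h => by
      have := congrArg (polar Q k₂) h
      rw [polar_add_right, h2', polar_comm Q k₂ k₁, hk12, zero_add, polar_zero_right] at this
      exact one_ne_zero this
    have hb : Q (πg r) = 1 := by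
      have := hA' (r + k₁) ((perpW Q W).add_mem hr hk₁) hne (by
        rw [QuadraticMap.map_add (⇑Q), hQr, hQk₁, polar_comm Q r k₁, h1]
        linear_combination h2)
      rwa [map_add, hπk₁, add_zero] at this
    have h : Q (ap g r) = 1 := by rw [mem_isometryGroup_iff.mp hgI]; exact hQr
    have hor : polar Q (lam r) (πg r) = 0 := hπmem r (lam r) (hlamW r)
    rw [show ap g r = lam r + πg r by rw [hlam]; abel, QuadraticMap.map_add (⇑Q), hb, hor,
      add_zero] at h
    linear_combination h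
  have hlamk : ∀ k, πg k = 0 → lam k = ap g k := fun k h => by rw [hlam, h, sub_zero]
  -- a singular vector of `W` orthogonal to all images
  obtain ⟨e, he, he0, hQe, heg⟩ : ∃ e ∈ W, e ≠ 0 ∧ Q e = 0 ∧
      ∀ p ∈ perpW Q W, polar Q e (ap g p) = 0 := by
    have hmk : ∀ k r, πg k = 0 → polar Q k r = 0 → polar Q (ap g k) (lam r) = 0 := fun k r h h' => by
      rw [hlam, polar_sub_right, polar_ap hgI, h', mem_perpW.mp (hπmem r) (ap g k) (hm k h), sub_zero]
    suffices h : ∃ e ∈ W, e ≠ 0 ∧ Q e = 0 ∧ polar Q e (ap g k₁) = 0 ∧ polar Q e (ap g k₂) = 0 ∧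
        ∀ r ∈ perpW Q W, polar Q k₁ r = 0 → polar Q k₂ r = 0 → polar Q e (lam r) = 0 by
      obtain ⟨e, he, he0, hQe, o1, o2, o3⟩ := h
      refine ⟨e, he, he0, hQe, fun p hp => ?_⟩
      obtain ⟨s, t, r, hr, r1, r2, rfl⟩ := hsplit p hp
      rw [ap_add, ap_add, ap_smul, ap_smul, polar_add_right, polar_add_right, polar_smul_right,
        polar_smul_right, o1, o2, show ap g r = lam r + πg r by rw [hlam]; abel, polar_add_right,
        o3 r hr r1 r2, mem_perpW.mp (hπmem r) e he]
      simp
    by_cases hall : ∀ r ∈ perpW Q W, polar Q k₁ r = 0 → polar Q k₂ r = 0 → lam r = 0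
    swap
    · push Not at hall
      obtain ⟨r, hr, r1, r2, hne⟩ := hall
      refine ⟨lam r, hlamW r, hne, hlamQ r hr r1 r2, ?_, ?_, fun r' hr' r1' r2' => ?_⟩
      · rw [polar_comm]; exact hmk k₁ r hπk₁ r1
      · rw [polar_comm]; exact hmk k₂ r hπk₂ r2
      · have h := hlamQ (r + r') ((perpW Q W).add_mem hr hr')
          (by rw [polar_add_right, r1, r1', add_zero]) (by rw [polar_add_right, r2, r2', add_zero])
        rw [map_add, QuadraticMap.map_add (⇑Q), hlamQ r hr r1 r2, hlamQ r' hr' r1' r2'] at h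
        simpa using h
    set m₁ := ap g k₁
    set m₂ := ap g k₂
    have hQm₁ : Q m₁ = 1 := by rw [mem_isometryGroup_iff.mp hgI]; exact hQk₁
    have hQm₂ : Q m₂ = 1 := by rw [mem_isometryGroup_iff.mp hgI]; exact hQk₂
    have hm12 : polar Q m₁ m₂ = 1 := by rw [polar_ap hgI]; exact hk12
    by_contra hnone
    push Not at hnone
    have hWm : ∀ x ∈ W, x ≠ 0 → polar Q x m₁ = 0 → polar Q x m₂ = 0 → Q x = 1 := fun x hx hx0 o1 o2 =>
      hQ1 fun h0 => by
        obtain ⟨r, hr, r1, r2, hne⟩ := hnone x hx hx0 h0 o1 o2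
        exact hne (by rw [hall r hr r1 r2, polar_zero_right])
    obtain ⟨x₁, hx₁0, hx₁⟩ := exists_ne_zero_ker
      (Fin.cons (polarBilin Q m₁) (Fin.cons (polarBilin Q m₂)
        (secW (isNondegenerateOn_perpW hW hQ)).φ)) (by have := finrank_add_perpW hW; omega)
    have x1m1 : polar Q x₁ m₁ = 0 := by rw [polar_comm]; simpa using hx₁ 0
    have x1m2 : polar Q x₁ m₂ = 0 := by rw [polar_comm]; simpa using hx₁ (Fin.succ 0)
    have hx₁W : x₁ ∈ W := by
      rw [← perpW_perpW hW hQ]
      exact (mem_secW (isNondegenerateOn_perpW hW hQ)).1 fun i => by simpa using hx₁ i.succ.succ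
    have hx₁span : x₁ ∉ Submodule.span F {m₁, m₂} := fun h => by
      obtain ⟨s, t, hst⟩ := Submodule.mem_span_pair.1 h
      have a1 := x1m1
      have a2 := x1m2
      rw [← hst] at a1 a2
      simp only [polar_add_left, polar_smul_left, polar_self_mul, h2, zero_mul, hm12,
        polar_comm Q m₂ m₁, smul_eq_mul, mul_zero, mul_one, add_zero, zero_add] at a1 a2
      exact hx₁0 (by rw [← hst, a1, a2, zero_smul, zero_smul, add_zero])
    obtain ⟨x₂, hx₂W, hx₂U, hx12⟩ := exists_sep_in hQ hW
      (U := Submodule.span F {m₁, m₂}) (Submodule.span_le.2 (by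
        intro x hx
        simp only [Set.mem_insert_iff, Set.mem_singleton_iff] at hx
        rcases hx with rfl | rfl
        exacts [hm₁, hm₂])) hx₁W hx₁span
    have x2m1 : polar Q x₂ m₁ = 0 := by
      rw [polar_comm]; exact hx₂U _ (Submodule.subset_span (by simp))
    have x2m2 : polar Q x₂ m₂ = 0 := by
      rw [polar_comm]; exact hx₂U _ (Submodule.subset_span (by simp))
    have hx₂0 : x₂ ≠ 0 := fun h => by rw [h, polar_zero_right] at hx12; exact zero_ne_one hx12
    have hQx₁ := hWm x₁ hx₁W hx₁0 x1m1 x1m2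
    have hQx₂ := hWm x₂ hx₂W hx₂0 x2m1 x2m2
    -- two singular planes, in `W` and in its complement
    obtain ⟨e₁, f₁, e₂, f₂, he₁, hf₁, he₂, hf₂, hp₁, hp₂, h12, -, hf2, -⟩ := hT
    let v : Fin 4 → (ι → F) := ![m₁ + x₁, m₂ + x₂, e₁, e₂]
    have hvW : ∀ {a b : ι → F}, a ∈ W → b ∈ perpW Q W → polar Q a b = 0 := fun ha hb => hb _ ha
    have hp01 : polar Q (m₁ + x₁) (m₂ + x₂) = 0 := by
      rw [polar_add_left, polar_add_right, polar_add_right, hm12, polar_comm Q m₁ x₂, x2m1, x1m2,
        hx12]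
      linear_combination h2
    have hvv : ∀ i j, polar Q (v i) (v j) = 0 := by
      have c1 := hvW (W.add_mem hm₁ hx₁W) he₁
      have c2 := hvW (W.add_mem hm₁ hx₁W) he₂
      have c3 := hvW (W.add_mem hm₂ hx₂W) he₁
      have c4 := hvW (W.add_mem hm₂ hx₂W) he₂
      intro i j
      fin_cases i <;> fin_cases j <;>
        simp [v, polar_self_mul, h2, hp01, c1, c2, c3, c4, h12, polar_comm Q e₂ e₁,
          polar_comm Q e₁ (m₁ + x₁), polar_comm Q e₁ (m₂ + x₂), polar_comm Q e₂ (m₁ + x₁),
          polar_comm Q e₂ (m₂ + x₂), polar_comm Q (m₂ + x₂) (m₁ + x₁)]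
    have hvQ : ∀ i, Q (v i) = 0 := by
      intro i
      fin_cases i
      · show Q (m₁ + x₁) = 0
        rw [QuadraticMap.map_add (⇑Q), hQm₁, hQx₁, polar_comm Q m₁ x₁, x1m1]
        linear_combination h2
      · show Q (m₂ + x₂) = 0
        rw [QuadraticMap.map_add (⇑Q), hQm₂, hQx₂, polar_comm Q m₂ x₂, x2m2]
        linear_combination h2
      · exact hp₁.1
      · exact hp₂.1
    have hvind : LinearIndependent F v := by
      rw [Fintype.linearIndependent_iff]
      intro c hc
      simp only [v, Fin.sum_univ_four, Matrix.cons_val_zero, Matrix.cons_val_one,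
        Matrix.cons_val] at hc
      have a1 := congrArg (polar Q m₂) hc
      have a2 := congrArg (polar Q m₁) hc
      have a3 := congrArg (polar Q f₁) hc
      have a4 := congrArg (polar Q f₂) hc
      have d1 : polar Q m₂ e₁ = 0 := hvW hm₂ he₁
      have d2 : polar Q m₂ e₂ = 0 := hvW hm₂ he₂
      have d3 : polar Q m₁ e₁ = 0 := hvW hm₁ he₁
      have d4 : polar Q m₁ e₂ = 0 := hvW hm₁ he₂
      simp only [polar_add_right, polar_smul_right, polar_zero_right, polar_self_mul, h2, zero_mul,
        polar_comm Q m₂ m₁, hm12, polar_comm Q m₂ x₁, x1m2, polar_comm Q m₂ x₂, x2m2,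
        polar_comm Q m₁ x₁, x1m1, polar_comm Q m₁ x₂, x2m1, d1, d2, d3, d4, smul_eq_mul, mul_zero,
        mul_one, add_zero, zero_add] at a1 a2
      have c1 : c 0 = 0 := a1
      have c2 : c 1 = 0 := a2
      rw [c1, c2, zero_smul, zero_smul, zero_add, zero_add] at a3 a4
      simp only [polar_add_right, polar_smul_right, polar_zero_right, polar_comm Q f₁ e₁, hp₁.2.2,
        hf2, polar_comm Q f₂ e₂, hp₂.2.2, smul_eq_mul, mul_zero, mul_one, add_zero] at a3 a4
      have c3 : c 2 = 0 := a3
      rw [c3] at a4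
      have c4 : c 3 = 0 := by simpa using a4
      intro i
      fin_cases i <;> assumption
    refine hno (Submodule.span F (Set.range v)) (fun x hx => ?_) ?_
    · obtain ⟨c, rfl⟩ := (Submodule.mem_span_range_iff_exists_fun F).1 hx
      simp only [Fin.sum_univ_four, QuadraticMap.map_add (⇑Q), QuadraticMap.map_smul, hvQ,
        polar_add_left, polar_smul_left, polar_smul_right, hvv, smul_zero, add_zero]
    · rw [finrank_span_eq_card hvind, Fintype.card_fin]
  -- the stabiliser of `P` also controls `W`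
  have hW' := isNondegenerateOn_perpW hW hQ
  have hWW := perpW_perpW hW hQ
  have hdim := finrank_add_perpW hW
  have hW4 : Module.finrank F (perpW Q W) + 4 ≤ Fintype.card ι := by omega
  have hexW : Nat.card F ≤ 3 → Module.finrank F (perpW Q W) = 2 →
      ∀ x ∈ perpW Q W, Q x = 0 → x = 0 := fun _ h => absurd h (by omega)
  have hHW : Cfsg.Geo.subspaceStabilizer (perpW Q W) ⊓ Cfsg.Geo.omegaGL (⇑Q) ≤ M := by
    rw [stab_perpW_inf hW hQ]; exact hHM
  set d := ap g⁻¹ e with hd
  have hdW : d ∈ W := by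
    rw [← hWW]
    intro p hp
    show polar Q p d = 0
    rw [← polar_ap hgI, hd, ap_ap_inv, polar_comm]
    exact heg p hp
  have hQd : Q d = 0 := by rw [hd, mem_isometryGroup_iff.mp (inv_mem hgI)]; exact hQe
  have hd0 : d ≠ 0 := ap_ne_zero _ he0
  have hback : ∀ y ∈ W, polar Q e y = 0 → ap g⁻¹ y ∈ W := by
    intro y hy hey
    have h := perp_maps hQ hW' hW4 hexW hHW hMI hcon hn5 (inv_mem hg) (u := e)
      (by rw [hWW]; exact he) he0 hQe (by rw [hWW]; exact hdW) y (by rw [hWW]; exact hy) hey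
    rwa [hWW] at h
  have hline : ∀ p ∈ perpW Q W, lam p ∈ Submodule.span F {e} := by
    intro p hp
    by_contra hne
    obtain ⟨y, hy, hye, hly⟩ := exists_sep_in hQ hW
      ((Submodule.span_singleton_le_iff_mem _ _).2 he) (hlamW p) hne
    have h := hback y hy (hye e (Submodule.mem_span_singleton_self e))
    have h1 : polar Q (ap g p) y = 0 := by
      rw [← ap_ap_inv g y, polar_ap hgI, polar_comm]
      exact hp _ h
    rw [show ap g p = lam p + πg p by rw [hlam]; abel, polar_add_left, hly, polar_comm Q (πg p) y,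
      mem_perpW.mp (hπmem p) y hy, add_zero] at h1
    exact one_ne_zero h1
  obtain ⟨w, hw, hQw, hew, hwe⟩ := exists_companion hQ hW hT he₀
  obtain ⟨s, hs⟩ := Submodule.mem_span_singleton.1 (hline e₀ he₀)
  obtain ⟨t, ht⟩ := Submodule.mem_span_singleton.1 (hline w hw)
  obtain ⟨u, hu, hu0, hQu, hlu⟩ : ∃ u ∈ perpW Q W, u ≠ 0 ∧ Q u = 0 ∧ lam u = 0 := by
    by_cases hs0 : s = 0
    · exact ⟨e₀, he₀, hp₀.fst_ne_zero, hp₀.1, by rw [← hs, hs0, zero_smul]⟩
    refine ⟨w - (t / s) • e₀, (perpW Q W).sub_mem hw ((perpW Q W).smul_mem _ he₀), fun h0 => hwe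
      (Submodule.mem_span_singleton.2 ⟨t / s, (sub_eq_zero.1 h0).symm⟩), ?_, ?_⟩
    · rw [CfsgLib.ClassicalForms.map_sub_eq, QuadraticMap.map_smul, polar_smul_right,
        polar_comm Q w e₀, hew, hp₀.1, hQw]
      simp
    · rw [map_sub, map_smul, ← hs, ← ht, smul_smul, div_mul_cancel₀ _ hs0, sub_self]
  refine hout u hu hu0 hQu ?_
  rw [show ap g u = lam u + πg u by rw [hlam]; abel, hlu, zero_add]
  exact hπmem u

end CfsgLib.Geometric.Orth.Eight
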